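import Cfsg.Agent.Lib.ModRep.ThDeg
import Cfsg.Agent.Lib.ModRep.Numerics2
import Cfsg.Agent.Lib.Blocks.Defect2
import Cfsg.Agent.Lib.Blocks.Inducing
import Cfsg.Agent.Lib.Blocks.ExtFMT

/-!
# Blocks of defect one

`P` of order `p`, `p ^ 2 ∤ |G|`.  Every block of positive defect is induced by the block of some `θ ∈ Irr(C_G(P))`
having `P` in the kernel, and `θ` is determined up to conjugacy under `N_G(P)`.  Given the count `hcount` of
Brauer characters, the structure theorem `Numerics2.Concl` holds for the family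
`Ws P θ κ = Ind_C^G ((κ - 1) θ)`.
-/

set_option autoImplicit false
set_option linter.style.haveILetI false
set_option linter.unusedSectionVars false

namespace Cfsg.Agent.Lib.ModRep.BlockTh

open Cfsg MonoidAlgebra
open Cfsg.Agent.Lib.Blocks.Local Cfsg.Agent.Lib.Blocks.Central Cfsg.Agent.Lib.Blocks.General
open Cfsg.Agent.Lib.Blocks.Induced
open Cfsg.Agent.Lib.Char.Induced Cfsg.Agent.Lib.Char.Ortho Cfsg.Agent.Lib.Char.Linear
open Cfsg.Agent.Lib.Char.Basic Cfsg.Agent.Lib.Char.GenLattice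
open Cfsg.Agent.Lib.ExcP.Gram Cfsg.Agent.Lib.ExcP.Inst Cfsg.Agent.Lib.ExcP.Dual
open Cfsg.Agent.Lib.ModRep.Prime Cfsg.Agent.Lib.ModRep.ThGram Cfsg.Agent.Lib.ModRep.ThIdem
open Cfsg.Agent.Lib.ModRep.ThDeg Cfsg.Agent.Lib.ModRep.Numerics2
open scoped ComplexConjugate

universe u

variable {G : Type u} [Group G] [Fintype G] {p : ℕ} [hp : Fact p.Prime] {P : Subgroup G}
  {M : Ideal AlgInt}

/-- **The structure theorem.** -/
theorem structure_block [Fintype (Cn P)] [Fintype (Nn P)] [Fintype (DD P p)] [Fintype (IrrCharacter G)]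
    [Fintype (IrrCharacter (Cn P))] (hM : IsPModular p M) (hP : Nat.card P = p)
    (hp2 : ¬ p ^ 2 ∣ Nat.card G) (θ : IrrCharacter (Cn P))
    (hθP : ∀ x : Cn P, (x : G) ∈ P → (θ : Cn P → ℂ) x = (θ : Cn P → ℂ) 1)
    {B : Set (IrrCharacter G)} (hind : IsInducedBlock M (Cn P) (blockOf M (θ : Cn P → ℂ)) B)
    {e f' : ℕ} (hN : Nat.card (stabN P (θ : Cn P → ℂ)) = e * Nat.card (Cn P))
    (hf : Nat.card (Nn P) = f' * e * Nat.card (Cn P))
    (hcount : ∀ S : Finset (IrrCharacter G), (∀ χ, χ ∈ B → ∃ (c : IrrCharacter G → ℤ) (m : ℤ),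
      ¬ (p : ℤ) ∣ m ∧ ∀ g, ¬ p ∣ orderOf g → (m : ℂ) * (χ : G → ℂ) g = ∑ ψ ∈ S, (c ψ : ℂ) * (ψ : G → ℂ) g) →
      e ≤ S.card) :
    Concl (rT P p (θ : Cn P → ℂ)) (fun d : DD P p => Ws P (θ : Cn P → ℂ) d.1) e p B
      ((f' * charDegree (θ : Cn P → ℂ) : ℕ) : ℤ) := by
  classical
  refine structure_thm (rT P p (θ : Cn P → ℂ)) (fun d : DD P p => Ws P (θ : Cn P → ℂ) d.1) e p hp.out
    (fun d => isGen_Ws θ.2 d.1) (fun d => Ws_one _ _) (gram_same hP hp2 θ.2 hθP hN) (gram_diff hP hp2 θ.2 hθP hN)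
    (card_class hP hp2 θ.2 hN) ?_ B (fun g => ¬ p ∣ orderOf g) _ ?_ ?_ ?_ hcount
  · rw [← Nat.card_eq_fintype_card, card_DD hP hp2]
  · intro j hj d
    exact classInner_Ws_eq_zero hM hP hp2 θ hθP hind d.2.1 hj
  · intro j hj
    refine ⟨fun h => not_dvd_degree_of_mem hM hP hp2 θ hθP hind hj (by exact_mod_cast h), ?_⟩
    choose n hn using fun d : DD P p =>
      exists_int_classInner (isGen_Ws (G := G) θ.2 d.1) (isGenChar_of_isIrr j.2)
    have hs : ∑ d : DD P p, classInner (Ws P (θ : Cn P → ℂ) d.1) (j : G → ℂ) = ((∑ d, n d : ℤ) : ℂ) := by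
      push_cast
      exact Finset.sum_congr rfl fun d _ => hn d
    refine ⟨∑ d, n d, 0, ?_, ?_⟩
    · rw [hs]
      simp
    · have h1 := dvd_degree_sub hM hP hp2 θ hθP hind hN hf hj _ hs
      convert h1 using 2
      push_cast
      ring
  · intro d y hy
    exact Ws_regular _ d.2.1 hy

/-- The members of a block of `C_G(P)` having `P` in the kernel: uniqueness. -/
theorem eq_of_mem_blockOf [Fintype (Cn P)] [Fintype (IrrCharacter (Cn P))] (hM : IsPModular p M)
    (hP : Nat.card P = p) (hp2 : ¬ p ^ 2 ∣ Nat.card G) {θ θ' : IrrCharacter (Cn P)}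
    (hθP : ∀ x : Cn P, (x : G) ∈ P → (θ : Cn P → ℂ) x = (θ : Cn P → ℂ) 1)
    (hθ'P : ∀ x : Cn P, (x : G) ∈ P → (θ' : Cn P → ℂ) x = (θ' : Cn P → ℂ) 1)
    (h : θ' ∈ blockOf M (θ : Cn P → ℂ)) : θ' = θ := by
  classical
  haveI := isPrime_of_pModular hM
  obtain ⟨K, hK, hcard, hidx⟩ := exists_complement (P := P) hP hp2
  letI : Fintype K := Fintype.ofFinite _
  by_contra hne
  have h4 := omegaHom_sub_mem_of_sameBlock h (Zel_mem_local hM hK hcard θ)
  rw [omegaHom_Zel hP hcard hidx hK θ θ' θ' hθP hθ'P (κ := 1) (by simp) (by simp), if_neg hne,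
    omegaHom_Zel hP hcard hidx hK θ θ θ hθP hθP (κ := 1) (by simp) (by simp), if_pos rfl, sub_zero] at h4
  exact one_notMemLocalIdeal h4

/-- The pair `(P, C_G(P))`. -/
theorem isBrauerPair_Cn [Finite G] (hP : Nat.card P = p) :
    Cfsg.Agent.Lib.Blocks.Induced.IsBrauerPair p P (Cn P) :=
  ⟨IsPGroup.of_card (n := 1) (by rw [hP, pow_one]), le_centralizer hP, le_refl _,
    Subgroup.centralizer_le_normalizer _⟩

/-- Subgroups of order `p` are conjugate. -/
theorem exists_conj_of_card [Finite G] (hP : Nat.card P = p) (hp2 : ¬ p ^ 2 ∣ Nat.card G) {D : Subgroup G}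
    (hD : Nat.card D = p) : ∃ x : G, P.map (MulAut.conj x).toMonoidHom = D := by
  have hfac : (Nat.card G).factorization p = 1 := by
    have h1 : p ∣ Nat.card G := by
      rw [← hP]
      exact Subgroup.card_subgroup_dvd_card _
    have h2 : 1 ≤ (Nat.card G).factorization p :=
      (hp.out.dvd_iff_one_le_factorization Nat.card_pos.ne').mp h1
    have h3 : ¬ 2 ≤ (Nat.card G).factorization p := by
      intro h
      exact hp2 ((hp.out.pow_dvd_iff_le_factorization Nat.card_pos.ne').mpr h)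
    omega
  let S : Sylow p G := Sylow.ofCard P (by rw [hfac, pow_one, hP])
  let S' : Sylow p G := Sylow.ofCard D (by rw [hfac, pow_one, hD])
  obtain ⟨x, hx⟩ := MulAction.exists_smul_eq G S S'
  refine ⟨x, ?_⟩
  have h1 := congrArg (fun T : Sylow p G => (T : Subgroup G)) hx
  exact h1

/-- **Every block of positive defect comes from some `θ`.** -/
theorem exists_theta [Fintype (Cn P)] [Fintype (IrrCharacter G)] [Fintype (IrrCharacter (Cn P))] (hM : IsPModular p M)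
    (hP : Nat.card P = p) (hp2 : ¬ p ^ 2 ∣ Nat.card G) {B : Set (IrrCharacter G)} (hB : IsPBlock M B)
    (hd : 0 < blockDefect p B) :
    ∃ θ : IrrCharacter (Cn P), (∀ x : Cn P, (x : G) ∈ P → (θ : Cn P → ℂ) x = (θ : Cn P → ℂ) 1) ∧
      IsInducedBlock M (Cn P) (blockOf M (θ : Cn P → ℂ)) B := by
  classical
  haveI := isPrime_of_pModular hM
  obtain ⟨D, hD⟩ := Cfsg.Agent.Lib.Blocks.Defect2.exists_isDefectGroup (p := p) hB
  have h1 := Cfsg.Agent.Lib.Blocks.Inducing.card_eq_pow_blockDefect hM hB hD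
  have h2 : blockDefect p B = 1 := by
    have h3 : p ^ blockDefect p B ∣ Nat.card G := by
      rw [← h1]
      exact Subgroup.card_subgroup_dvd_card _
    have h4 : ¬ 2 ≤ blockDefect p B := by
      intro h
      exact hp2 ((pow_dvd_pow p h).trans h3)
    omega
  rw [h2, pow_one] at h1
  obtain ⟨x, hx⟩ := exists_conj_of_card hP hp2 h1
  obtain ⟨b, hb⟩ := Cfsg.Agent.Lib.Blocks.Defect2.exists_induced_of_le_defect hM (isBrauerPair_Cn hP) hB hD
    (x := x) hx.le
  obtain ⟨ξ, hξ⟩ := isPBlock_nonempty hb.1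
  obtain ⟨κ, θ', hκ, hθ'P, h⟩ := exists_decomp hP hp2 ξ
  refine ⟨θ', hθ'P, ?_⟩
  have h3 : ξ ∈ blockOf M (θ' : Cn P → ℂ) := mem_blockOf_of_twist hM hκ h
  have h4 : b = blockOf M (θ' : Cn P → ℂ) := by
    rw [isPBlock_eq_blockOf hb.1 hξ]
    exact blockOf_eq_of_mem h3
  rwa [← h4]

/-- The conjugate of `θ`, as an irreducible character. -/
noncomputable def cjI (y : Nn P) (θ : IrrCharacter (Cn P)) : IrrCharacter (Cn P) :=
  ⟨cjt P y (θ : Cn P → ℂ), isIrr_cjt y θ.2⟩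

@[simp] theorem cjI_apply (y : Nn P) (θ : IrrCharacter (Cn P)) (c : Cn P) :
    (cjI y θ : Cn P → ℂ) c = (θ : Cn P → ℂ) (cjH P y c) := rfl

/-- Conjugates of characters have the same induced central characters. -/
theorem indHom_cjI [Fintype (Cn P)] (y : Nn P) (θ : IrrCharacter (Cn P)) (z : Subalgebra.center ℂ (GA G)) :
    indHom (Cn P) (cjI y θ) z = indHom (Cn P) θ z := by
  classical
  rw [indHom_apply, indHom_apply, omegaHom_apply, omegaHom_apply, lin_apply, lin_apply]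
  have h1 : (cjI y θ : Cn P → ℂ) 1 = (θ : Cn P → ℂ) 1 := by
    rw [cjI_apply, map_one]
  rw [h1]
  congr 1
  let f : Cn P ≃ Cn P :=
    { toFun := cjH P y
      invFun := cjH P y⁻¹
      left_inv := fun c => by
        apply Subtype.ext
        simp only [coe_cjH, Subgroup.coe_inv, inv_inv]
        group
      right_inv := fun c => by
        apply Subtype.ext
        simp only [coe_cjH, Subgroup.coe_inv, inv_inv]
        group }
  refine Fintype.sum_equiv f _ _ fun c => ?_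
  rw [cjI_apply]
  show _ * (θ : Cn P → ℂ) (cjH P y c) = _ * (θ : Cn P → ℂ) (cjH P y c)
  congr 1
  rw [coe_restrCenter, coeff_restr, coeff_restr]
  have h2 := isCentral_of_mem z (c : G) (y : G)⁻¹
  rw [← h2]
  congr 1
  simp [f]

/-- Conjugate characters induce the same block. -/
theorem isInduced_cjI [Fintype (Cn P)] [Fintype (IrrCharacter G)] [Fintype (IrrCharacter (Cn P))]
    (hM : IsPModular p M) (y : Nn P) (θ : IrrCharacter (Cn P)) {B : Set (IrrCharacter G)}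
    (hind : IsInducedBlock M (Cn P) (blockOf M (θ : Cn P → ℂ)) B) :
    IsInducedBlock M (Cn P) (blockOf M (cjI y θ : Cn P → ℂ)) B := by
  classical
  haveI := isPrime_of_pModular hM
  obtain ⟨χ, hχ⟩ := isPBlock_nonempty hind.2.1
  refine isInducedBlock_of_forall (Cn P) ⟨_, rfl⟩ hind.2.1 (mem_blockOf_self (cjI y θ)) hχ fun g => ?_
  have h1 := hind.2.2 θ (mem_blockOf_self θ) χ hχ g
  rwa [← indHom_classSum, ← indHom_cjI y θ, indHom_classSum] at h1

/-- The induced block has `P` as defect group. -/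
theorem isDefectGroup_of_induced [Fintype (Cn P)] [Fintype (IrrCharacter G)]
    [Fintype (IrrCharacter (Cn P))] (hM : IsPModular p M) (hP : Nat.card P = p)
    (hp2 : ¬ p ^ 2 ∣ Nat.card G) {b : Set (IrrCharacter (Cn P))} {B : Set (IrrCharacter G)}
    (hind : IsInducedBlock M (Cn P) b B) : IsDefectGroup p M B P := by
  classical
  haveI := isPrime_of_pModular hM
  obtain ⟨D, hD, hle⟩ := Cfsg.Agent.Lib.Blocks.Defect2.exists_defect_ge_of_induced hM (isBrauerPair_Cn hP) hind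
  have h1 : IsPGroup p D := Cfsg.Agent.Lib.Blocks.Defect2.isDefectGroup_isPGroup hD
  obtain ⟨n, hn⟩ := h1.exists_card_eq
  have h2 : P = D := by
    apply Subgroup.eq_of_le_of_card_ge hle
    rw [hn, hP]
    have hn1 : n ≤ 1 := by
      by_contra hcon
      apply hp2
      have h3 : p ^ 2 ∣ p ^ n := pow_dvd_pow p (by omega)
      rw [← hn] at h3
      exact h3.trans (Subgroup.card_subgroup_dvd_card _)
    calc p ^ n ≤ p ^ 1 := Nat.pow_le_pow_right hp.out.pos hn1
      _ = p := pow_one p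
  rwa [h2]

/-- **Two characters inducing the same block are conjugate.** -/
theorem exists_cjI_eq [Fintype (Cn P)] [Fintype (IrrCharacter G)] [Fintype (IrrCharacter (Cn P))]
    (hM : IsPModular p M) (hP : Nat.card P = p) (hp2 : ¬ p ^ 2 ∣ Nat.card G) {θ θ' : IrrCharacter (Cn P)}
    (hθP : ∀ x : Cn P, (x : G) ∈ P → (θ : Cn P → ℂ) x = (θ : Cn P → ℂ) 1)
    (hθ'P : ∀ x : Cn P, (x : G) ∈ P → (θ' : Cn P → ℂ) x = (θ' : Cn P → ℂ) 1)
    {B : Set (IrrCharacter G)} (hind : IsInducedBlock M (Cn P) (blockOf M (θ : Cn P → ℂ)) B)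
    (hind' : IsInducedBlock M (Cn P) (blockOf M (θ' : Cn P → ℂ)) B) :
    ∃ y : Nn P, cjI y θ = θ' := by
  classical
  haveI := isPrime_of_pModular hM
  have hnorm : Subgroup.normalizer (P : Set G) ≤ Subgroup.normalizer ((Cn P : Subgroup G) : Set G) := by
    intro n hn
    rw [Subgroup.mem_normalizer_iff]
    intro h
    constructor
    · intro hh
      have h1 := conj_mem_centralizer P ((Nn P).inv_mem hn) hh
      simpa using h1
    · intro hh
      have h1 := conj_mem_centralizer P hn hh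
      simpa [mul_assoc] using h1
  letI : Fintype ↥(Subgroup.normalizer (P : Set G)) := Fintype.ofFinite _
  haveI := Cfsg.Agent.Lib.Char.Ortho.finite_irrCharacter (G := ↥(Subgroup.normalizer (P : Set G)))
  letI := Fintype.ofFinite (IrrCharacter ↥(Subgroup.normalizer (P : Set G)))
  obtain ⟨n, hn, hmem⟩ := Cfsg.Agent.Lib.Blocks.ExtFMT.exists_conj_of_induced hM (isBrauerPair_Cn hP) hnorm
    (isDefectGroup_of_induced hM hP hp2 hind) hind hind'
  have h1 := hmem θ (mem_blockOf_self θ)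
  -- `conjI` is the action of `n⁻¹`
  have h2 : Cfsg.Agent.Lib.Blocks.ExtFMT.conjI (hnorm hn) θ = cjI (⟨n, hn⟩⁻¹ : Nn P) θ := by
    apply Subtype.ext
    funext k
    refine congrArg (θ : Cn P → ℂ) ?_
    apply Subtype.ext
    simp [Cfsg.Agent.Lib.BlockH.Pairs.coe_conjOfNormalizer]
  rw [h2] at h1
  refine ⟨(⟨n, hn⟩⁻¹ : Nn P), ?_⟩
  exact eq_of_mem_blockOf hM hP hp2 hθ'P (fun x hx => cjt_ker hθP _ x hx) h1

section Form

omit [Fintype G] in
/-- The stabilizer in the form of a subgroup of `G`. -/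
theorem mem_T_iff {θ : Cn P → ℂ} {T : Subgroup G}
    (hT : ∀ g : G, g ∈ T ↔ g ∈ Nn P ∧ ∀ c c' : Cn P, (c' : G) = g * c * g⁻¹ → θ c' = θ c) (y : Nn P) :
    (y : G) ∈ T ↔ y ∈ stabN P θ := by
  rw [hT]
  constructor
  · rintro ⟨-, h⟩ c
    refine (h (cjH P y c) c ?_).symm
    simp only [coe_cjH]
    group
  · intro h
    refine ⟨y.2, fun c c' hc' => ?_⟩
    have h1 : cjH P y c' = c := by
      apply Subtype.ext
      rw [coe_cjH, hc']
      group
    rw [← h1, h c']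

omit [Fintype G] in
theorem card_T_eq {θ : Cn P → ℂ} {T : Subgroup G}
    (hT : ∀ g : G, g ∈ T ↔ g ∈ Nn P ∧ ∀ c c' : Cn P, (c' : G) = g * c * g⁻¹ → θ c' = θ c) :
    Nat.card (stabN P θ) = Nat.card T := by
  apply Nat.card_congr
  exact
    { toFun := fun y => ⟨y.1.1, (mem_T_iff hT y.1).mpr y.2⟩
      invFun := fun y => ⟨⟨y.1, ((hT _).mp y.2).1⟩, (mem_T_iff hT _).mp y.2⟩
      left_inv := fun y => rfl
      right_inv := fun y => rfl }

omit [Fintype G] in
theorem centralizer_le_T {θ : Cn P → ℂ} (hθ : IsClassFunction (Cn P) θ) {T : Subgroup G}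
    (hT : ∀ g : G, g ∈ T ↔ g ∈ Nn P ∧ ∀ c c' : Cn P, (c' : G) = g * c * g⁻¹ → θ c' = θ c) :
    Cn P ≤ T := by
  intro g hg
  rw [hT]
  refine ⟨Subgroup.centralizer_le_normalizer _ hg, fun c c' hc' => ?_⟩
  have h1 := hθ c ⟨g, hg⟩
  rw [← h1]
  congr 1
  exact Subtype.ext hc'

omit [Fintype G] in
/-- The order of the stabilizer from the index. -/
theorem card_stabN_of_relIndex [Finite G] {θ : Cn P → ℂ} (hθ : IsClassFunction (Cn P) θ) {T : Subgroup G}
    (hT : ∀ g : G, g ∈ T ↔ g ∈ Nn P ∧ ∀ c c' : Cn P, (c' : G) = g * c * g⁻¹ → θ c' = θ c) {e : ℕ}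
    (he : (Cn P).relIndex T = e) : Nat.card (stabN P θ) = e * Nat.card (Cn P) := by
  rw [card_T_eq hT]
  have hle := centralizer_le_T hθ hT
  have h1 := Subgroup.card_mul_index ((Cn P).subgroupOf T)
  have h2 : Nat.card ((Cn P).subgroupOf T) = Nat.card (Cn P) :=
    Nat.card_congr (Subgroup.subgroupOfEquivOfLe hle).toEquiv
  rw [h2] at h1
  rw [← h1, ← he, mul_comm]
  rfl

omit [Fintype G] in
/-- The order of the normalizer from the indices. -/
theorem card_Nn_of_relIndex [Finite G] {θ : Cn P → ℂ} (hθ : IsClassFunction (Cn P) θ) {T : Subgroup G}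
    (hT : ∀ g : G, g ∈ T ↔ g ∈ Nn P ∧ ∀ c c' : Cn P, (c' : G) = g * c * g⁻¹ → θ c' = θ c) {e f : ℕ}
    (he : (Cn P).relIndex T = e) (hf : (Cn P).relIndex (Nn P) = f) :
    0 < e ∧ e ∣ f ∧ Nat.card (Nn P) = f / e * e * Nat.card (Cn P) := by
  have hle := centralizer_le_T hθ hT
  have hTN : T ≤ Nn P := fun g hg => ((hT g).mp hg).1
  have h1 := Subgroup.relIndex_mul_relIndex (Cn P) T (Nn P) hle hTN
  rw [he, hf] at h1
  have he0 : 0 < e := by
    rw [← he]
    exact Nat.pos_of_ne_zero (Subgroup.index_ne_zero_of_finite (H := (Cn P).subgroupOf T))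
  have hd : e ∣ f := ⟨_, h1.symm⟩
  refine ⟨he0, hd, ?_⟩
  rw [Nat.div_mul_cancel hd]
  have hle2 : Cn P ≤ Nn P := Subgroup.centralizer_le_normalizer _
  have h3 := Subgroup.card_mul_index ((Cn P).subgroupOf (Nn P))
  have h4 : Nat.card ((Cn P).subgroupOf (Nn P)) = Nat.card (Cn P) :=
    Nat.card_congr (Subgroup.subgroupOfEquivOfLe hle2).toEquiv
  rw [h4] at h3
  rw [← h3, ← hf, mul_comm]
  rfl

/-- **The structure theorem**, in terms of the inertia group. -/
theorem structure_T [Fintype (Cn P)] [Fintype (Nn P)] [Fintype (DD P p)] [Fintype (IrrCharacter G)]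
    [Fintype (IrrCharacter (Cn P))] (hM : IsPModular p M) (hP : Nat.card P = p)
    (hp2 : ¬ p ^ 2 ∣ Nat.card G) (θ : IrrCharacter (Cn P))
    (hθP : ∀ x : Cn P, (x : G) ∈ P → (θ : Cn P → ℂ) x = (θ : Cn P → ℂ) 1)
    {B : Set (IrrCharacter G)} (hind : IsInducedBlock M (Cn P) (blockOf M (θ : Cn P → ℂ)) B)
    {T : Subgroup G}
    (hT : ∀ g : G, g ∈ T ↔ g ∈ Nn P ∧ ∀ c c' : Cn P, (c' : G) = g * c * g⁻¹ →
      (θ : Cn P → ℂ) c' = (θ : Cn P → ℂ) c) {e f : ℕ}
    (he : (Cn P).relIndex T = e) (hf : (Cn P).relIndex (Nn P) = f)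
    (hcount : ∀ S : Finset (IrrCharacter G), (∀ χ, χ ∈ B → ∃ (c : IrrCharacter G → ℤ) (m : ℤ),
      ¬ (p : ℤ) ∣ m ∧ ∀ g, ¬ p ∣ orderOf g → (m : ℂ) * (χ : G → ℂ) g = ∑ ψ ∈ S, (c ψ : ℂ) * (ψ : G → ℂ) g) →
      e ≤ S.card) :
    Concl (rT P p (θ : Cn P → ℂ)) (fun d : DD P p => Ws P (θ : Cn P → ℂ) d.1) e p B
      ((f / e * charDegree (θ : Cn P → ℂ) : ℕ) : ℤ) :=
  structure_block hM hP hp2 θ hθP hind
    (card_stabN_of_relIndex (isClassFunction_of_isIrrCharacter θ.2) hT he)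
    (card_Nn_of_relIndex (isClassFunction_of_isIrrCharacter θ.2) hT he hf).2.2 hcount

end Form

end Cfsg.Agent.Lib.ModRep.BlockTh


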