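import Cfsg.Agent.Lib.ModRep.Struct2
import Cfsg.Agent.Lib.ModRep.Prime

/-!
# The principal block when the Sylow subgroup is abelian and its automizer acts freely

`P` is an abelian Sylow `p`-subgroup, `C_G(y) ∩ N_G(P) = C_G(P)` for `y ∈ P^#`.  Then the generalized characters
`Θ_ψ = Σ_{j ∈ B₀} ⟨ψ - 1, j_P⟩ j` have Gram matrix `m + δ`, `m = [N_G(P) : C_G(P)]`, and vanish on `p`-regular elements.
-/

set_option autoImplicit false
set_option linter.style.haveILetI false
set_option linter.unusedSectionVars false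

namespace Cfsg.Agent.Lib.ModRep.AbFrob

open Cfsg
open Cfsg.Agent.Lib.Blocks.Local Cfsg.Agent.Lib.Blocks.Central Cfsg.Agent.Lib.Blocks.General
open Cfsg.Agent.Lib.Char.Induced Cfsg.Agent.Lib.Char.Ortho Cfsg.Agent.Lib.Char.Linear
open Cfsg.Agent.Lib.Char.Basic Cfsg.Agent.Lib.Char.GenLattice Cfsg.Agent.Lib.Char.Complete
open Cfsg.Agent.Lib.ExcP.Gram
open Cfsg.Agent.Lib.ModRep.Prime
open scoped ComplexConjugate

universe u

section Dual

variable {A : Type u} [Group A] [Finite A]

/-- Linear characters as irreducible characters. -/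
theorem toIrr_bij (hcomm : ∀ a b : A, a * b = b * a) :
    Function.Bijective (Cfsg.Agent.Lib.ExcP.Dual.toIrr A) := by
  constructor
  · intro Y Z h
    ext x
    exact congrFun (congrArg Subtype.val h) x
  · rintro ⟨χ, hχ⟩
    have h1 := isIrr_deg_one_of_comm hcomm hχ
    obtain ⟨lam, hlam⟩ := exists_hom_of_deg_one (isCharacter_of_isIrrCharacter hχ) h1
    exact ⟨lam, Subtype.ext hlam.symm⟩

/-- The number of linear characters. -/
theorem card_hom (hcomm : ∀ a b : A, a * b = b * a) : Nat.card (A →* ℂˣ) = Nat.card A := by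
  rw [Nat.card_congr (Equiv.ofBijective _ (toIrr_bij hcomm)), card_irr_eq_card_conjClasses,
    card_conjClasses_of_comm hcomm]

theorem finite_hom (hcomm : ∀ a b : A, a * b = b * a) : Finite (A →* ℂˣ) := by
  apply Nat.finite_of_card_ne_zero
  rw [card_hom hcomm]
  exact Nat.card_pos.ne'

/-- Column orthogonality. -/
theorem sum_hom [Fintype A] [Fintype (A →* ℂˣ)] (hcomm : ∀ a b : A, a * b = b * a) (u : A)
    [Decidable (u = 1)] :
    ∑ Y : A →* ℂˣ, ((Y u : ℂˣ) : ℂ) = if u = 1 then (Nat.card A : ℂ) else 0 := by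
  classical
  have := Cfsg.Agent.Lib.Char.Ortho.finite_irrCharacter (G := A)
  let _ : Fintype (IrrCharacter A) := Fintype.ofFinite _
  have h1 := sum_irr_mul_conj (G := A) u 1
  have h2 : ∀ χ : IrrCharacter A, (χ : A → ℂ) u * conj ((χ : A → ℂ) 1) = (χ : A → ℂ) u := by
    intro χ
    rw [isIrr_deg_one_of_comm hcomm χ.2]
    simp
  simp only [h2] at h1
  have h3 : ∑ Y : A →* ℂˣ, ((Y u : ℂˣ) : ℂ) = ∑ χ : IrrCharacter A, (χ : A → ℂ) u :=
    Fintype.sum_bijective _ (toIrr_bij hcomm) _ _ (fun Y => rfl)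
  rw [h3, h1]
  by_cases hu : u = 1
  · subst hu
    rw [if_pos (IsConj.refl _), if_pos rfl]
    have h4 : Subgroup.centralizer ({1} : Set A) = ⊤ := by
      simp
    rw [h4, Subgroup.card_top]
  · rw [if_neg, if_neg hu]
    intro hc
    exact hu (isConj_one_right.mp hc.symm)

end Dual

variable {G : Type u} [Group G] {p : ℕ} [hp : Fact p.Prime] {P : Subgroup G}

/-- The hypotheses on `P`. -/
structure AbF (P : Subgroup G) (p : ℕ) : Prop where
  pgrp : IsPGroup p P
  syl : ¬ p ∣ P.index
  ab : ∀ x ∈ P, ∀ y ∈ P, x * y = y * x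
  frob : ∀ y ∈ P, y ≠ 1 → Subgroup.centralizer ({y} : Set G) ⊓ Nn P = Cn P

section Basic

variable [Finite G]

theorem AbF.comm (h : AbF P p) : ∀ a b : P, a * b = b * a := fun a b =>
  Subtype.ext (h.ab a a.2 b b.2)

theorem AbF.le_Cn (h : AbF P p) : P ≤ Cn P := by
  intro x hx
  rw [Subgroup.mem_centralizer_iff]
  intro y hy
  exact h.ab y hy x hx

theorem AbF.mem_Cn_of_fix (h : AbF P p) {n : G} (hn : n ∈ Nn P) {y : G} (hy : y ∈ P) (hy1 : y ≠ 1)
    (hfix : n * y * n⁻¹ = y) : n ∈ Cn P := by
  rw [← h.frob y hy hy1]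
  refine ⟨?_, hn⟩
  show n ∈ Subgroup.centralizer ({y} : Set G)
  rw [Subgroup.mem_centralizer_singleton_iff]
  rw [mul_inv_eq_iff_eq_mul] at hfix
  exact hfix

/-- The `p`-part of the index. -/
theorem AbF.not_dvd_index_of_le (h : AbF P p) {H : Subgroup G} (hle : P ≤ H) : ¬ p ∣ (P.subgroupOf H).index := by
  intro hd
  apply h.syl
  have h1 : (P.subgroupOf H).index * H.index = P.index := by
    have := Subgroup.relIndex_mul_index hle
    exact this
  rw [← h1]
  exact hd.mul_right _

/-- The Sylow subgroup in a subgroup containing it. -/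
noncomputable def AbF.sylowIn (h : AbF P p) {H : Subgroup G} (hle : P ≤ H) : Sylow p H :=
  (h.pgrp.comap_of_ker_isPGroup (H.subtype) (IsPGroup.ker_isPGroup_of_injective H.subtype_injective)).toSylow
    (h.not_dvd_index_of_le hle)

/-- The centralizer of an element of `P` has a normal `p`-complement. -/
theorem AbF.exists_complement (h : AbF P p) {y : G} (hy : y ∈ P) (hy1 : y ≠ 1) :
    ∃ K : Subgroup (Subgroup.centralizer ({y} : Set G)), K.Normal ∧ ¬ p ∣ Nat.card K ∧
      K.index = Nat.card P := by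
  classical
  have hle : P ≤ Subgroup.centralizer ({y} : Set G) := by
    intro x hx
    rw [Subgroup.mem_centralizer_singleton_iff]
    exact h.ab x hx y hy
  let S := h.sylowIn hle
  have hScoe : (S : Subgroup (Subgroup.centralizer ({y} : Set G))) = P.subgroupOf _ := rfl
  have hnorm : Subgroup.normalizer ((S : Subgroup (Subgroup.centralizer ({y} : Set G))) : Set (Subgroup.centralizer ({y} : Set G))) ≤
      Subgroup.centralizer ((S : Subgroup (Subgroup.centralizer ({y} : Set G))) : Set (Subgroup.centralizer ({y} : Set G))) := by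
    intro c hc
    rw [Subgroup.mem_centralizer_iff]
    intro s hs
    have hcN : (c : G) ∈ Nn P := by
      rw [Subgroup.mem_normalizer_iff]
      intro x
      constructor
      · intro hx
        exact (Subgroup.mem_normalizer_iff.mp hc ⟨x, hle hx⟩).mp hx
      · intro hx
        have hx' : x ∈ Subgroup.centralizer ({y} : Set G) := by
          have h2 := (Subgroup.centralizer ({y} : Set G)).mul_mem
            ((Subgroup.centralizer ({y} : Set G)).mul_mem (Subgroup.inv_mem _ c.2) (hle hx)) c.2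
          simpa [mul_assoc] using h2
        exact (Subgroup.mem_normalizer_iff.mp hc ⟨x, hx'⟩).mpr hx
    have hcC : (c : G) ∈ Cn P := by
      rw [← h.frob y hy hy1]
      exact ⟨c.2, hcN⟩
    have hs' : (s : G) ∈ P := hs
    apply Subtype.ext
    exact (Subgroup.mem_centralizer_iff.mp hcC _ hs')
  have hcomp := MonoidHom.ker_transferSylow_isComplement' S hnorm
  have hnd := MonoidHom.not_dvd_card_ker_transferSylow S hnorm
  refine ⟨(MonoidHom.transferSylow S hnorm).ker, inferInstance, hnd, ?_⟩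
  have h2 : (MonoidHom.transferSylow S hnorm).ker.index = Nat.card S := hcomp.symm.index_eq_card
  rw [h2]
  exact Nat.card_congr (Subgroup.subgroupOfEquivOfLe hle).toEquiv

/-- Burnside's fusion theorem. -/
theorem AbF.exists_normalizer_of_isConj (h : AbF P p) {y y' : G} (hy : y ∈ P) (hy' : y' ∈ P)
    (hc : IsConj y y') : ∃ n ∈ Nn P, n * y * n⁻¹ = y' := by
  classical
  obtain ⟨g, hg⟩ := isConj_iff.mp hc
  set H := Subgroup.centralizer ({y'} : Set G) with hH
  have hle : P ≤ H := by
    intro x hx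
    rw [hH, Subgroup.mem_centralizer_singleton_iff]
    exact h.ab x hx y' hy'
  -- the conjugate of `P`
  let Q : Subgroup G := P.map (MulAut.conj g).toMonoidHom
  have hQ : ∀ x ∈ Q, g⁻¹ * x * g ∈ P := by
    rintro _ ⟨a, ha, rfl⟩
    simpa [mul_assoc] using ha
  have hQle : Q ≤ H := by
    rintro _ ⟨a, ha, rfl⟩
    rw [hH, Subgroup.mem_centralizer_singleton_iff, ← hg]
    simp only [MulEquiv.coe_toMonoidHom, MulAut.conj_apply]
    have := h.ab a ha y hy
    calc g * a * g⁻¹ * (g * y * g⁻¹) = g * (a * y) * g⁻¹ := by group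
      _ = g * (y * a) * g⁻¹ := by rw [this]
      _ = _ := by group
  have hQcard : Nat.card Q = Nat.card P :=
    Nat.card_congr (Subgroup.equivMapOfInjective P _ (MulAut.conj g).injective).toEquiv.symm
  have hQp : IsPGroup p Q := h.pgrp.map _
  have hQnd : ¬ p ∣ (Q.subgroupOf H).index := by
    have h1 : (Q.subgroupOf H).index = (P.subgroupOf H).index := by
      have h2 := Subgroup.card_mul_index (Q.subgroupOf H)
      have h3 := Subgroup.card_mul_index (P.subgroupOf H)
      have h4 : Nat.card (Q.subgroupOf H) = Nat.card Q :=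
        Nat.card_congr (Subgroup.subgroupOfEquivOfLe hQle).toEquiv
      have h5 : Nat.card (P.subgroupOf H) = Nat.card P :=
        Nat.card_congr (Subgroup.subgroupOfEquivOfLe hle).toEquiv
      rw [h4, hQcard] at h2
      rw [h5, ← h2] at h3
      exact (Nat.eq_of_mul_eq_mul_left Nat.card_pos h3).symm
    rw [h1]
    exact h.not_dvd_index_of_le hle
  let S₁ : Sylow p H := h.sylowIn hle
  let S₂ : Sylow p H := (hQp.comap_of_ker_isPGroup (H.subtype)
    (IsPGroup.ker_isPGroup_of_injective H.subtype_injective)).toSylow hQnd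
  obtain ⟨c, hcS⟩ := MulAction.exists_smul_eq H S₂ S₁
  have hS₁ : (S₁ : Subgroup H) = P.subgroupOf H := rfl
  have hS₂ : (S₂ : Subgroup H) = Q.subgroupOf H := rfl
  have hcS' : ∀ x ∈ P, (c : G) * (g * x * g⁻¹) * (c : G)⁻¹ ∈ P := by
    intro x hx
    have h1 : g * x * g⁻¹ ∈ Q := ⟨x, hx, rfl⟩
    have h2 : (⟨g * x * g⁻¹, hQle h1⟩ : H) ∈ (S₂ : Subgroup H) := by
      rw [hS₂]
      exact h1
    have h3 : c * (⟨g * x * g⁻¹, hQle h1⟩ : H) * c⁻¹ ∈ ((c • S₂ : Sylow p H) : Subgroup H) := by
      rw [Sylow.coe_subgroup_smul]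
      exact ⟨_, h2, rfl⟩
    rw [hcS, hS₁] at h3
    exact h3
  refine ⟨(c : G) * g, ?_, ?_⟩
  · rw [Subgroup.mem_normalizer_iff_map_conj_eq]
    apply Subgroup.eq_of_le_of_card_ge
    · rintro _ ⟨a, ha, rfl⟩
      have := hcS' a ha
      simpa [mul_assoc] using this
    · exact (Nat.card_congr (Subgroup.equivMapOfInjective P _ (MulAut.conj ((c : G) * g)).injective).toEquiv).le
  · rw [mul_inv_rev]
    calc (c : G) * g * y * (g⁻¹ * (c : G)⁻¹) = (c : G) * (g * y * g⁻¹) * (c : G)⁻¹ := by group
      _ = (c : G) * y' * (c : G)⁻¹ := by rw [hg]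
      _ = y' := by
        have h1 := (Subgroup.mem_centralizer_singleton_iff.mp c.2)
        rw [h1]
        group

end Basic

section Orth

variable [Fintype G] [Fintype (IrrCharacter G)] {M : Ideal AlgInt}

open scoped Classical in
/-- The sum over the principal block. -/
noncomputable def SS (M : Ideal AlgInt) (g y : G) : ℂ :=
  ∑ j : IrrCharacter G, if j ∈ principalBlock M G then (j : G → ℂ) g * conj ((j : G → ℂ) y) else 0

theorem AbF.order_pow (h : AbF P p) {y : G} (hy : y ∈ P) : ∃ k, orderOf y = p ^ k := by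
  obtain ⟨k, hk⟩ := (IsPGroup.iff_orderOf.mp h.pgrp) ⟨y, hy⟩
  exact ⟨k, by rw [← hk, Subgroup.orderOf_mk]⟩

theorem AbF.card_pow (h : AbF P p) : ∃ k, Nat.card P = p ^ k := by
  obtain ⟨k, hk⟩ := IsPGroup.iff_card.mp h.pgrp
  exact ⟨k, hk⟩

open scoped Classical in
/-- The block sum, averaged over a normal complement. -/
theorem AbF.card_mul_SS (h : AbF P p) (hM : IsPModular p M) {y : G} (hy : y ∈ P)
    {K : Subgroup (Subgroup.centralizer ({y} : Set G))} [Fintype K] (hK : K.Normal)
    (hcard : ¬ p ∣ Nat.card K) (hidx : K.index = Nat.card P) (g : G) :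
    (Nat.card K : ℂ) * SS M g y = ∑ v : K, if IsConj g (((v : Subgroup.centralizer ({y} : Set G)) : G) * y) then
      (Nat.card (Subgroup.centralizer ({((v : Subgroup.centralizer ({y} : Set G)) : G) * y} : Set G)) : ℂ) else 0 := by
  classical
  haveI := isPrime_of_pModular hM
  have := Cfsg.Agent.Lib.Char.Ortho.finite_irrCharacter (G := Subgroup.centralizer ({y} : Set G))
  letI : Fintype (IrrCharacter (Subgroup.centralizer ({y} : Set G))) := Fintype.ofFinite _
  letI : Fintype (Subgroup.centralizer ({y} : Set G)) := Fintype.ofFinite _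
  have hoy := h.order_pow hy
  have h0 : ∀ v : K, (if IsConj g (((v : Subgroup.centralizer ({y} : Set G)) : G) * y) then
      (Nat.card (Subgroup.centralizer ({((v : Subgroup.centralizer ({y} : Set G)) : G) * y} : Set G)) : ℂ) else 0) =
      ∑ χ : IrrCharacter G, (χ : G → ℂ) g * conj ((χ : G → ℂ) (((v : Subgroup.centralizer ({y} : Set G)) : G) * y)) := by
    intro v
    rw [sum_irr_mul_conj]
    congr
  simp only [h0]
  rw [Finset.sum_comm, SS, Finset.mul_sum]
  refine Finset.sum_congr rfl fun j _ => ?_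
  rw [← Finset.mul_sum, ← map_sum]
  by_cases hj : j ∈ principalBlock M G
  · rw [if_pos hj]
    have h1 : ∀ v : K, (j : G → ℂ) (((v : Subgroup.centralizer ({y} : Set G)) : G) * y) = (j : G → ℂ) y := by
      intro v
      have h2 := value_eq_of_mem hM hoy rfl hK hcard hj v.2
      rw [← h2, (Subgroup.mem_centralizer_singleton_iff.mp (v : Subgroup.centralizer ({y} : Set G)).2)]
    rw [Finset.sum_congr rfl (fun v _ => h1 v), Finset.sum_const, Finset.card_univ, nsmul_eq_mul,
      ← Nat.card_eq_fintype_card]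
    simp only [map_mul, map_natCast]
    ring
  · rw [if_neg hj]
    obtain ⟨k, hk⟩ := h.card_pow
    have h2 := sum_eq_zero_of_notMem hM hoy rfl hK hcard ⟨k, by rw [hidx, hk]⟩ hj
    rw [h2]
    simp

theorem orderOf_isConj {x y : G} (h : IsConj x y) : orderOf y = orderOf x := by
  obtain ⟨c, rfl⟩ := isConj_iff.mp h
  exact orderOf_injective (MulAut.conj c).toMonoidHom (MulAut.conj c).injective x

/-- The order of a product. -/
theorem AbF.orderOf_mul (h : AbF P p) {y : G} (hy : y ∈ P)
    {K : Subgroup (Subgroup.centralizer ({y} : Set G))} (hcard : ¬ p ∣ Nat.card K) (v : K) :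
    orderOf (((v : Subgroup.centralizer ({y} : Set G)) : G) * y) =
      orderOf v * orderOf y ∧ (orderOf v).Coprime p := by
  classical
  obtain ⟨k, hk⟩ := h.order_pow hy
  have h1 : orderOf ((v : Subgroup.centralizer ({y} : Set G)) : G) = orderOf v := by
    rw [← Subgroup.orderOf_coe v, ← Subgroup.orderOf_coe (v : Subgroup.centralizer ({y} : Set G))]
  have h2 : (orderOf v).Coprime p := by
    apply Nat.Coprime.symm
    rw [Nat.Prime.coprime_iff_not_dvd hp.out]
    intro hd
    exact hcard (hd.trans (orderOf_dvd_natCard v))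
  have h3 : Commute ((v : Subgroup.centralizer ({y} : Set G)) : G) y :=
    (Subgroup.mem_centralizer_singleton_iff.mp (v : Subgroup.centralizer ({y} : Set G)).2)
  refine ⟨?_, h2⟩
  rw [h3.orderOf_mul_eq_mul_orderOf_of_coprime, h1]
  rw [h1, hk]
  exact Nat.Coprime.pow_right _ h2

/-- Block orthogonality for `p`-regular elements. -/
theorem AbF.SS_regular (h : AbF P p) (hM : IsPModular p M) {y : G} (hy : y ∈ P) (hy1 : y ≠ 1) {g : G}
    (hg : ¬ p ∣ orderOf g) : SS M g y = 0 := by
  classical
  obtain ⟨K, hK, hcard, hidx⟩ := h.exists_complement hy hy1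
  letI : Fintype K := Fintype.ofFinite _
  have h1 := h.card_mul_SS hM hy hK hcard hidx g
  have hK0 : (Nat.card K : ℂ) ≠ 0 := Nat.cast_ne_zero.mpr Nat.card_pos.ne'
  rw [Finset.sum_eq_zero] at h1
  · exact (mul_eq_zero.mp h1).resolve_left hK0
  · intro v _
    rw [if_neg]
    intro hc
    apply hg
    rw [← orderOf_isConj hc, (h.orderOf_mul hy hcard v).1]
    apply Dvd.dvd.mul_left
    obtain ⟨k, hk⟩ := h.order_pow hy
    rw [hk]
    apply dvd_pow_self
    rintro rfl
    apply hy1
    rw [← orderOf_eq_one_iff, hk, pow_zero]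

open scoped Classical in
/-- Block orthogonality on `P`. -/
theorem AbF.SS_P (h : AbF P p) (hM : IsPModular p M) {y : G} (hy : y ∈ P) (hy1 : y ≠ 1) {y' : G}
    (hy' : y' ∈ P) : SS M y' y = if IsConj y' y then (Nat.card P : ℂ) else 0 := by
  classical
  obtain ⟨K, hK, hcard, hidx⟩ := h.exists_complement hy hy1
  letI : Fintype K := Fintype.ofFinite _
  have h1 := h.card_mul_SS hM hy hK hcard hidx y'
  have hK0 : (Nat.card K : ℂ) ≠ 0 := Nat.cast_ne_zero.mpr Nat.card_pos.ne'
  rw [Finset.sum_eq_single (1 : K)] at h1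
  · have hC : (Nat.card (Subgroup.centralizer ({y} : Set G)) : ℂ) = (Nat.card K : ℂ) * (Nat.card P : ℂ) := by
      rw [← Nat.cast_mul, ← hidx, Subgroup.card_mul_index]
    simp only [OneMemClass.coe_one, one_mul] at h1
    by_cases hc : IsConj y' y
    · rw [if_pos hc, hC] at h1
      rw [if_pos hc]
      exact mul_left_cancel₀ hK0 h1
    · rw [if_neg hc, mul_eq_zero] at h1
      rw [if_neg hc]
      exact h1.resolve_left hK0
  · intro v _ hv
    rw [if_neg]
    intro hc
    have h2 := orderOf_isConj hc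
    obtain ⟨h3, h4⟩ := h.orderOf_mul hy hcard v
    rw [h3] at h2
    obtain ⟨k, hk⟩ := h.order_pow hy'
    have h5 : orderOf v ∣ p ^ k := by
      rw [← hk, ← h2]
      exact dvd_mul_right _ _
    have h6 : orderOf v = 1 := (h4.pow_right k).eq_one_of_dvd h5
    exact hv (orderOf_eq_one_iff.mp h6)
  · intro hn
    exact absurd (Finset.mem_univ _) hn

end Orth

end Cfsg.Agent.Lib.ModRep.AbFrob
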