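import Cfsg.Agent.Lib.ModRep.AbFrob

/-!
# The normalizer action on the linear characters of an abelian Sylow subgroup; the generalized characters `Θ_ψ`
-/

set_option autoImplicit false
set_option linter.style.haveILetI false
set_option linter.unusedSectionVars false

namespace Cfsg.Agent.Lib.ModRep.AbFrob

open Cfsg
open Cfsg.Agent.Lib.Blocks.Local Cfsg.Agent.Lib.Blocks.Central Cfsg.Agent.Lib.Blocks.General
open Cfsg.Agent.Lib.Char.Induced Cfsg.Agent.Lib.Char.Ortho Cfsg.Agent.Lib.Char.Linear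
open Cfsg.Agent.Lib.Char.Basic Cfsg.Agent.Lib.Char.GenLattice Cfsg.Agent.Lib.Char.Complete
open Cfsg.Agent.Lib.ExcP.Gram
open Cfsg.Agent.Lib.ModRep.Prime Cfsg.Agent.Lib.ModRep.AbFrob
open scoped ComplexConjugate

universe u

/-- Summing along a map whose fibres are the cosets of a subgroup. -/
theorem sum_fiber {N X : Type*} [Group N] [Fintype N] [DecidableEq X] (C : Subgroup N) (f : N → X)
    (hf : ∀ n n', f n = f n' ↔ n⁻¹ * n' ∈ C) (F : X → ℂ) :
    ∑ n, F (f n) = (Nat.card C : ℂ) * ∑ x ∈ Finset.univ.image f, F x := by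
  classical
  rw [Finset.sum_comp F f, Finset.mul_sum]
  refine Finset.sum_congr rfl fun x hx => ?_
  obtain ⟨n₀, -, rfl⟩ := Finset.mem_image.mp hx
  have h1 : (Finset.univ.filter fun n => f n = f n₀).card = Nat.card C := by
    rw [← Fintype.card_subtype, ← Nat.card_eq_fintype_card]
    apply Nat.card_congr
    refine ⟨fun n => ⟨n₀⁻¹ * n.1, (hf _ _).mp n.2.symm⟩, fun c => ⟨n₀ * c.1, (hf _ _).mpr (by simpa using c.2) |>.symm⟩, ?_, ?_⟩
    · intro n
      apply Subtype.ext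
      simp
    · intro c
      apply Subtype.ext
      simp
  rw [h1, nsmul_eq_mul]

variable {G : Type u} [Group G] {p : ℕ} [hp : Fact p.Prime] {P : Subgroup G}

section Action

theorem inv_conj_mem (n : Nn P) {y : G} (hy : y ∈ P) : (n : G)⁻¹ * y * n ∈ P := by
  have h1 := (Subgroup.mem_normalizer_iff.mp ((Nn P).inv_mem n.2) y).mp hy
  simpa using h1

/-- Conjugation on `P`. -/
def cjP (P : Subgroup G) (n : Nn P) : P →* P where
  toFun y := ⟨(n : G)⁻¹ * y * n, inv_conj_mem n y.2⟩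
  map_one' := by
    apply Subtype.ext
    simp
  map_mul' a b := by
    apply Subtype.ext
    simp only [Subgroup.coe_mul, mul_assoc, mul_inv_cancel_left]

@[simp] theorem coe_cjP (n : Nn P) (y : P) : ((cjP P n y : P) : G) = (n : G)⁻¹ * y * n := rfl

/-- The action on linear characters. -/
def ac (P : Subgroup G) (n : Nn P) (ψ : P →* ℂˣ) : P →* ℂˣ := ψ.comp (cjP P n)

theorem ac_apply (n : Nn P) (ψ : P →* ℂˣ) (y : P) : ac P n ψ y = ψ (cjP P n y) := rfl

theorem ac_one (ψ : P →* ℂˣ) : ac P 1 ψ = ψ := by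
  ext y
  rw [ac_apply]
  congr 3
  apply Subtype.ext
  simp

theorem cjP_mul (a b : Nn P) (y : P) : cjP P (a * b) y = cjP P b (cjP P a y) := by
  apply Subtype.ext
  simp [mul_assoc]

theorem ac_mul (a b : Nn P) (ψ : P →* ℂˣ) : ac P (a * b) ψ = ac P a (ac P b ψ) := by
  ext y
  rw [ac_apply, ac_apply, ac_apply, cjP_mul]

theorem ac_of_mem_Cn (ψ : P →* ℂˣ) {n : Nn P} (hn : (n : G) ∈ Cn P) : ac P n ψ = ψ := by
  ext y
  rw [ac_apply]
  congr 3
  apply Subtype.ext
  have h1 := Subgroup.mem_centralizer_iff.mp hn y y.2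
  simp only [coe_cjP]
  rw [mul_assoc, h1, inv_mul_cancel_left]

theorem ac_inv_ac (n : Nn P) (ψ : P →* ℂˣ) : ac P n⁻¹ (ac P n ψ) = ψ := by
  rw [← ac_mul, inv_mul_cancel, ac_one]

theorem ac_ac_inv (n : Nn P) (ψ : P →* ℂˣ) : ac P n (ac P n⁻¹ ψ) = ψ := by
  rw [← ac_mul, mul_inv_cancel, ac_one]

theorem ac_one_hom (n : Nn P) : ac P n (1 : P →* ℂˣ) = 1 := by
  ext y
  rw [ac_apply]
  simp

theorem ac_ne_one {ψ : P →* ℂˣ} (hψ : ψ ≠ 1) (n : Nn P) : ac P n ψ ≠ 1 := by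
  intro h
  apply hψ
  rw [← ac_inv_ac n ψ, h, ac_one_hom]

variable [Finite G]

/-- The action on nontrivial linear characters is free modulo the centralizer. -/
theorem AbF.mem_Cn_of_ac_eq (h : AbF P p) {ψ : P →* ℂˣ} (hψ : ψ ≠ 1) {n : Nn P} (hfix : ac P n ψ = ψ) :
    (n : G) ∈ Cn P := by
  classical
  by_contra hn
  apply hψ
  -- the map `y ↦ y⁻¹ (n⁻¹ y n)`
  let f : P → P := fun y => y⁻¹ * cjP P n y
  have hf : Function.Injective f := by
    have hcomm := h.comm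
    have hfmul : ∀ a b, f (a * b) = f a * f b := by
      intro a b
      simp only [f, map_mul, mul_inv_rev]
      calc b⁻¹ * a⁻¹ * (cjP P n a * cjP P n b) = a⁻¹ * b⁻¹ * (cjP P n a * cjP P n b) := by
            rw [hcomm b⁻¹ a⁻¹]
        _ = a⁻¹ * (b⁻¹ * cjP P n a) * cjP P n b := by group
        _ = a⁻¹ * (cjP P n a * b⁻¹) * cjP P n b := by rw [hcomm b⁻¹]
        _ = _ := by group
    have hfinv : ∀ a b, f a = f b → f (a * b⁻¹) = 1 := by
      intro a b hab
      have h1 : f (a * b⁻¹) * f b = f a := by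
        rw [← hfmul, inv_mul_cancel_right]
      rw [hab] at h1
      exact mul_eq_right.mp h1
    intro a b hab
    have h1 := hfinv a b hab
    have h2 : cjP P n (a * b⁻¹) = a * b⁻¹ := by
      have h3 : (a * b⁻¹)⁻¹ * cjP P n (a * b⁻¹) = 1 := h1
      rw [inv_mul_eq_one] at h3
      exact h3.symm
    by_contra hne
    have hne' : ((a * b⁻¹ : P) : G) ≠ 1 := by
      intro h4
      apply hne
      have h5 : a * b⁻¹ = 1 := Subtype.ext h4
      exact mul_inv_eq_one.mp h5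
    apply hn
    have h6 := congrArg (fun x : P => (x : G)) h2
    simp only [coe_cjP] at h6
    apply h.mem_Cn_of_fix n.2 (a * b⁻¹ : P).2 hne'
    calc (n : G) * ((a * b⁻¹ : P) : G) * (n : G)⁻¹
        = (n : G) * ((n : G)⁻¹ * ((a * b⁻¹ : P) : G) * n) * (n : G)⁻¹ := by rw [h6]
      _ = _ := by group
  have hs : Function.Surjective f := Finite.injective_iff_surjective.mp hf
  ext y
  obtain ⟨x, rfl⟩ := hs y
  have h1 : ψ (f x) = 1 := by
    simp only [f, map_mul, map_inv]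
    rw [← ac_apply, hfix, inv_mul_cancel]
  rw [h1]
  simp


/-- The nontrivial linear characters. -/
abbrev DP (P : Subgroup G) : Type u := {ψ : P →* ℂˣ // ψ ≠ 1}

/-- The relation of being conjugate under the normalizer. -/
def rP (P : Subgroup G) : Setoid (DP P) where
  r a b := ∃ n : Nn P, a.1 = ac P n b.1
  iseqv :=
    { refl := fun a => ⟨1, (ac_one a.1).symm⟩
      symm := by
        rintro a b ⟨y, hy⟩
        refine ⟨y⁻¹, ?_⟩
        rw [hy, ac_inv_ac]
      trans := by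
        rintro a b c ⟨y, hy⟩ ⟨z, hz⟩
        refine ⟨y * z, ?_⟩
        rw [ac_mul, ← hz, hy] }

/-- The centralizer inside the normalizer. -/
abbrev CC (P : Subgroup G) : Subgroup (Nn P) := (Cn P).subgroupOf (Nn P)

theorem card_CC : Nat.card (CC P) = Nat.card (Cn P) :=
  Nat.card_congr (Subgroup.subgroupOfEquivOfLe (Subgroup.centralizer_le_normalizer _)).toEquiv

theorem AbF.ac_eq_ac_iff (h : AbF P p) {ψ : P →* ℂˣ} (hψ : ψ ≠ 1) (n n' : Nn P) :
    ac P n ψ = ac P n' ψ ↔ n⁻¹ * n' ∈ CC P := by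
  constructor
  · intro heq
    have h1 : ac P (n⁻¹ * n') ψ = ψ := by
      rw [ac_mul, ← heq, ac_inv_ac]
    exact Subgroup.mem_subgroupOf.mpr (h.mem_Cn_of_ac_eq hψ h1)
  · intro hn
    have h1 := ac_of_mem_Cn ψ (Subgroup.mem_subgroupOf.mp hn)
    rw [ac_mul] at h1
    conv_lhs => rw [← h1]
    rw [ac_ac_inv]

theorem AbF.cj_eq_cj_iff (h : AbF P p) {y : P} (hy : y ≠ 1) (n n' : Nn P) :
    cjP P n⁻¹ y = cjP P n'⁻¹ y ↔ n⁻¹ * n' ∈ CC P := by
  have hy' : (y : G) ≠ 1 := fun h1 => hy (Subtype.ext h1)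
  constructor
  · intro heq
    have h1 := congrArg (fun x : P => (x : G)) heq
    simp only [coe_cjP, InvMemClass.coe_inv, inv_inv] at h1
    apply Subgroup.mem_subgroupOf.mpr
    apply h.mem_Cn_of_fix (n⁻¹ * n').2 y.2 hy'
    simp only [Subgroup.coe_mul, InvMemClass.coe_inv]
    calc (n : G)⁻¹ * n' * y * ((n : G)⁻¹ * n')⁻¹ = (n : G)⁻¹ * (n' * y * (n' : G)⁻¹) * n := by group
      _ = (n : G)⁻¹ * (n * y * (n : G)⁻¹) * n := by rw [h1]
      _ = y := by group
  · intro hn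
    have h1 := Subgroup.mem_subgroupOf.mp hn
    have h2 := Subgroup.mem_centralizer_iff.mp h1 y y.2
    simp only [Subgroup.coe_mul, InvMemClass.coe_inv] at h2
    apply Subtype.ext
    simp only [coe_cjP, InvMemClass.coe_inv, inv_inv]
    calc (n : G) * y * (n : G)⁻¹ = n * (y * ((n : G)⁻¹ * n')) * ((n : G)⁻¹ * n')⁻¹ * (n : G)⁻¹ := by group
      _ = n * (((n : G)⁻¹ * n') * y) * ((n : G)⁻¹ * n')⁻¹ * (n : G)⁻¹ := by rw [h2]
      _ = _ := by group

end Action


section Coeff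

variable [Fintype G] [Fintype (IrrCharacter G)] [Fintype P] {M : Ideal AlgInt}

/-- The coefficient of `j`. -/
noncomputable def AA (P : Subgroup G) [Fintype P] (ψ : P →* ℂˣ) (f : G → ℂ) : ℂ :=
  (Nat.card P : ℂ)⁻¹ * ∑ y : P, (((ψ y : ℂˣ) : ℂ) - 1) * conj (f y)

theorem exists_int_AA (ψ : P →* ℂˣ) (j : IrrCharacter G) : ∃ n : ℤ, AA P ψ (j : G → ℂ) = n := by
  have h1 : IsGeneralizedCharacter P (fun y => ((ψ y : ℂˣ) : ℂ) - 1) :=
    isGenChar_sub (isGenChar_of_isIrr (isIrrCharacter_of_hom ψ)) isGenChar_one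
  have h2 : IsGeneralizedCharacter P (fun y : P => (j : G → ℂ) y) :=
    isGenChar_restrict P (isGenChar_of_isIrr j.2)
  exact exists_int_classInner h1 h2

/-- The integer coefficient. -/
noncomputable def cc (P : Subgroup G) [Fintype P] (ψ : P →* ℂˣ) (j : IrrCharacter G) : ℤ :=
  Classical.choose (exists_int_AA ψ j)

theorem cc_spec (ψ : P →* ℂˣ) (j : IrrCharacter G) : AA P ψ (j : G → ℂ) = (cc P ψ j : ℂ) :=
  Classical.choose_spec (exists_int_AA ψ j)

theorem cc_conj (ψ : P →* ℂˣ) (j : IrrCharacter G) :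
    (cc P ψ j : ℂ) = (Nat.card P : ℂ)⁻¹ * ∑ y : P, conj (((ψ y : ℂˣ) : ℂ) - 1) * (j : G → ℂ) y := by
  have h1 := congrArg conj (cc_spec ψ j)
  rw [map_intCast, AA, map_mul, map_inv₀, map_natCast, map_sum] at h1
  rw [← h1]
  congr 1
  refine Finset.sum_congr rfl fun y _ => ?_
  rw [map_mul, Complex.conj_conj]

open scoped Classical in
/-- The multiplicity. -/
noncomputable def mm (M : Ideal AlgInt) (P : Subgroup G) [Fintype P] (ψ : P →* ℂˣ) (j : IrrCharacter G) : ℤ :=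
  if j ∈ principalBlock M G then cc P ψ j else 0

/-- The generalized character `Θ_ψ`. -/
noncomputable def ThP (M : Ideal AlgInt) (P : Subgroup G) [Fintype P] (ψ : P →* ℂˣ) : G → ℂ :=
  ∑ j : IrrCharacter G, mm M P ψ j • (j : G → ℂ)

theorem isGen_ThP (ψ : P →* ℂˣ) : IsGeneralizedCharacter G (ThP M P ψ) :=
  isGenChar_of_int_combination _

theorem classInner_ThP (ψ : P →* ℂˣ) (i : IrrCharacter G) :
    classInner (ThP M P ψ) (i : G → ℂ) = (mm M P ψ i : ℂ) :=
  classInner_of_int_combination _ i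

theorem ThP_apply (ψ : P →* ℂˣ) (g : G) :
    ThP M P ψ g = ∑ j : IrrCharacter G, (mm M P ψ j : ℂ) * (j : G → ℂ) g := by
  rw [ThP, Finset.sum_apply]
  refine Finset.sum_congr rfl fun j _ => ?_
  simp

theorem ThP_eq (ψ : P →* ℂˣ) (g : G) :
    ThP M P ψ g = (Nat.card P : ℂ)⁻¹ * ∑ y : P, (((ψ y : ℂˣ) : ℂ) - 1) * SS M g y := by
  classical
  rw [ThP_apply]
  simp only [SS, Finset.mul_sum]
  rw [Finset.sum_comm]
  refine Finset.sum_congr rfl fun j _ => ?_
  rw [mm]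
  by_cases hj : j ∈ principalBlock M G
  · simp only [if_pos hj]
    rw [← cc_spec, AA, Finset.mul_sum, Finset.sum_mul]
    refine Finset.sum_congr rfl fun y _ => ?_
    ring
  · simp only [if_neg hj]
    simp

theorem ThP_of_regular (h : AbF P p) (hM : IsPModular p M) (ψ : P →* ℂˣ) {g : G}
    (hg : ¬ p ∣ orderOf g) : ThP M P ψ g = 0 := by
  rw [ThP_eq]
  apply mul_eq_zero_of_right
  refine Finset.sum_eq_zero fun y _ => ?_
  by_cases hy : y = 1
  · subst hy
    simp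
  · rw [h.SS_regular hM y.2 (fun h1 => hy (Subtype.ext h1)) hg, mul_zero]

theorem ThP_one (h : AbF P p) (hM : IsPModular p M) (ψ : P →* ℂˣ) : ThP M P ψ 1 = 0 := by
  apply ThP_of_regular h hM
  rw [orderOf_one]
  exact hp.out.one_lt.ne' ∘ Nat.dvd_one.mp

variable [Fintype (Nn P)]

open scoped Classical in
/-- Summing over the normalizer orbit of an element. -/
theorem AbF.sum_conj (h : AbF P p) {y : P} (hy : y ≠ 1) (F : P → ℂ) :
    ∑ n : Nn P, F (cjP P n⁻¹ y) =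
      (Nat.card (Cn P) : ℂ) * ∑ x : P, if IsConj (y : G) (x : G) then F x else 0 := by
  rw [sum_fiber (CC P) (fun n => cjP P n⁻¹ y) (h.cj_eq_cj_iff hy) F, card_CC, ← Finset.sum_filter]
  congr 1
  apply Finset.sum_congr _ fun _ _ => rfl
  ext x
  simp only [Finset.mem_image, Finset.mem_univ, true_and, Finset.mem_filter]
  constructor
  · rintro ⟨n, rfl⟩
    rw [isConj_iff]
    refine ⟨n, ?_⟩
    simp
  · intro hc
    obtain ⟨n, hn, hn'⟩ := h.exists_normalizer_of_isConj y.2 x.2 hc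
    refine ⟨⟨n, hn⟩, ?_⟩
    apply Subtype.ext
    simpa using hn'

/-- The values of `Θ_ψ` on `P`. -/
theorem AbF.ThP_P (h : AbF P p) (hM : IsPModular p M) (ψ : P →* ℂˣ) {y : P} (hy : y ≠ 1) :
    ThP M P ψ y = (Nat.card (Cn P) : ℂ)⁻¹ * ∑ n : Nn P, (((ac P n ψ y : ℂˣ) : ℂ) - 1) := by
  classical
  have hC0 : (Nat.card (Cn P) : ℂ) ≠ 0 := Nat.cast_ne_zero.mpr Nat.card_pos.ne'
  have hP0 : (Nat.card P : ℂ) ≠ 0 := Nat.cast_ne_zero.mpr Nat.card_pos.ne'
  have h1 : ∑ n : Nn P, (((ac P n ψ y : ℂˣ) : ℂ) - 1) = ∑ n : Nn P, (((ψ (cjP P n⁻¹ y) : ℂˣ) : ℂ) - 1) := by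
    rw [← Equiv.sum_comp (Equiv.inv (Nn P))]
    rfl
  rw [h1, h.sum_conj hy (fun x => ((ψ x : ℂˣ) : ℂ) - 1), inv_mul_cancel_left₀ hC0, ThP_eq]
  have h2 : ∀ x : P, (((ψ x : ℂˣ) : ℂ) - 1) * SS M (y : G) (x : G) =
      (Nat.card P : ℂ) * if IsConj (y : G) (x : G) then ((ψ x : ℂˣ) : ℂ) - 1 else 0 := by
    intro x
    by_cases hx : x = 1
    · subst hx
      simp
    · have hx' : (x : G) ≠ 1 := fun h1 => hx (Subtype.ext h1)
      rw [h.SS_P hM x.2 hx' y.2]
      split_ifs with hc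
      · ring
      · simp
  simp only [h2]
  rw [← Finset.mul_sum, inv_mul_cancel_left₀ hP0]

end Coeff

section Gram

variable [Fintype G] [Fintype (IrrCharacter G)] [Fintype P] {M : Ideal AlgInt}

/-- Orthogonality of linear characters. -/
theorem classInner_hom_hom (a b : P →* ℂˣ) :
    classInner (fun y => ((a y : ℂˣ) : ℂ)) (fun y => ((b y : ℂˣ) : ℂ)) = if a = b then 1 else 0 := by
  classical
  rw [classInner_irr (isIrrCharacter_of_hom a) (isIrrCharacter_of_hom b)]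
  by_cases hab : a = b
  · subst hab
    simp
  · rw [if_neg hab, if_neg]
    intro h1
    apply hab
    ext y
    exact congrFun h1 y

/-- Inner products of the differences. -/
theorem sum_fl_fl {a b : P →* ℂˣ} (ha : a ≠ 1) (hb : b ≠ 1) :
    (Nat.card P : ℂ)⁻¹ * ∑ y : P, (((a y : ℂˣ) : ℂ) - 1) * conj (((b y : ℂˣ) : ℂ) - 1) =
      1 + if a = b then 1 else 0 := by
  classical
  have h1 : (fun _ : P => (1 : ℂ)) = fun y => (((1 : P →* ℂˣ) y : ℂˣ) : ℂ) := by
    funext x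
    simp
  have h2 : (Nat.card P : ℂ)⁻¹ * ∑ y : P, (((a y : ℂˣ) : ℂ) - 1) * conj (((b y : ℂˣ) : ℂ) - 1) =
      classInner ((fun y => ((a y : ℂˣ) : ℂ)) - fun _ => 1) ((fun y => ((b y : ℂˣ) : ℂ)) - fun _ => 1) := rfl
  rw [h2, classInner_sub_left, classInner_sub_right, classInner_sub_right, h1, classInner_hom_hom,
    classInner_hom_hom, classInner_hom_hom, classInner_hom_hom, if_neg ha, if_neg hb.symm, if_pos rfl]
  ring

/-- The Gram matrix as a sum over `P`. -/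
theorem classInner_ThP_ThP (a b : P →* ℂˣ) :
    classInner (ThP M P a) (ThP M P b) =
      (Nat.card P : ℂ)⁻¹ * ∑ y : P, conj (((b y : ℂˣ) : ℂ) - 1) * ThP M P a y := by
  classical
  have h1 : ∀ y : P, conj (((b y : ℂˣ) : ℂ) - 1) * ThP M P a y =
      ∑ j : IrrCharacter G, (mm M P a j : ℂ) * (conj (((b y : ℂˣ) : ℂ) - 1) * (j : G → ℂ) y) := by
    intro y
    rw [ThP_apply, Finset.mul_sum]
    refine Finset.sum_congr rfl fun j _ => ?_
    ring
  simp only [h1]
  rw [Finset.sum_comm, Finset.mul_sum]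
  have h2 : ∀ j : IrrCharacter G, (Nat.card P : ℂ)⁻¹ * ∑ y : P, (mm M P a j : ℂ) *
      (conj (((b y : ℂˣ) : ℂ) - 1) * (j : G → ℂ) y) = (mm M P a j : ℂ) * (cc P b j : ℂ) := by
    intro j
    rw [← Finset.mul_sum, mul_left_comm, ← cc_conj]
  simp only [h2]
  change classInner (ThP M P a) (∑ j : IrrCharacter G, mm M P b j • (j : G → ℂ)) = _
  rw [classInner_sum_right]
  refine Finset.sum_congr rfl fun j _ => ?_
  rw [classInner_zsmul_right, classInner_ThP]
  rw [mm, mm]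
  by_cases hj : j ∈ principalBlock M G
  · rw [if_pos hj, if_pos hj]
    ring
  · rw [if_neg hj, if_neg hj]
    simp

variable [Fintype (Nn P)]

/-- The Gram matrix. -/
theorem AbF.gram (h : AbF P p) (hM : IsPModular p M) {m : ℕ}
    (hm : Nat.card (Nn P) = m * Nat.card (Cn P)) {a b : P →* ℂˣ} (ha : a ≠ 1) (hb : b ≠ 1)
    [Decidable (∃ n : Nn P, b = ac P n a)] :
    classInner (ThP M P a) (ThP M P b) = (m : ℂ) + if ∃ n : Nn P, b = ac P n a then 1 else 0 := by
  classical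
  have hC0 : (Nat.card (Cn P) : ℂ) ≠ 0 := Nat.cast_ne_zero.mpr Nat.card_pos.ne'
  have h1 : ∀ y : P, conj (((b y : ℂˣ) : ℂ) - 1) * ThP M P a y =
      (Nat.card (Cn P) : ℂ)⁻¹ * ∑ n : Nn P, (((ac P n a y : ℂˣ) : ℂ) - 1) * conj (((b y : ℂˣ) : ℂ) - 1) := by
    intro y
    by_cases hy : y = 1
    · subst hy
      simp
    · rw [h.ThP_P hM a hy, mul_left_comm, Finset.mul_sum]
      congr 1
      refine Finset.sum_congr rfl fun n _ => ?_
      ring
  rw [classInner_ThP_ThP]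
  simp only [h1]
  rw [← Finset.mul_sum, mul_left_comm, Finset.sum_comm, Finset.mul_sum]
  simp only [sum_fl_fl (ac_ne_one ha _) hb]
  rw [Finset.sum_add_distrib, Finset.sum_const, Finset.card_univ, nsmul_eq_mul, mul_one,
    ← Nat.card_eq_fintype_card, hm, mul_add, Nat.cast_mul, mul_comm (m : ℂ), inv_mul_cancel_left₀ hC0]
  congr 1
  have h2 := sum_fiber (CC P) (fun n => ac P n a) (h.ac_eq_ac_iff ha) (fun x => if x = b then (1 : ℂ) else 0)
  rw [h2, card_CC, inv_mul_cancel_left₀ hC0, Finset.sum_ite_eq']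
  simp only [Finset.mem_image, Finset.mem_univ, true_and]
  by_cases hex : ∃ n : Nn P, b = ac P n a
  · rw [if_pos hex, if_pos]
    obtain ⟨n, hn⟩ := hex
    exact ⟨n, hn.symm⟩
  · rw [if_neg hex, if_neg]
    rintro ⟨n, hn⟩
    exact hex ⟨n, hn.symm⟩

end Gram

end Cfsg.Agent.Lib.ModRep.AbFrob
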