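import Cfsg.Agent.Lib.ModRep.AbFrob2
import Cfsg.Agent.Lib.ModRep.Struct2

/-!
# The structure of the principal block when the Sylow subgroup is abelian with free automizer
-/

set_option autoImplicit false
set_option linter.style.haveILetI false
set_option linter.unusedSectionVars false

namespace Cfsg.Agent.Lib.ModRep.AbFrob

open Cfsg
open Cfsg.Agent.Lib.Blocks.Local Cfsg.Agent.Lib.Blocks.Central Cfsg.Agent.Lib.Blocks.General
open Cfsg.Agent.Lib.Char.Induced Cfsg.Agent.Lib.Char.Ortho Cfsg.Agent.Lib.Char.Linear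
open Cfsg.Agent.Lib.Char.Basic Cfsg.Agent.Lib.Char.GenLattice Cfsg.Agent.Lib.Char.Complete
open Cfsg.Agent.Lib.ExcP.Gram
open Cfsg.Agent.Lib.ModRep.Prime
open scoped ComplexConjugate

universe u

variable {G : Type u} [Group G] {p : ℕ} [hp : Fact p.Prime] {P : Subgroup G}

section Fourier

variable {A : Type u} [Group A] [Finite A]

theorem conj_hom (ψ : A →* ℂˣ) (y : A) : conj ((ψ y : ℂˣ) : ℂ) = ((ψ y⁻¹ : ℂˣ) : ℂ) := by
  have hy : y ^ Nat.card A = 1 := pow_card_eq_one'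
  have h1 : ((ψ y : ℂˣ) : ℂ) ^ Nat.card A = 1 := by
    rw [← Units.val_pow_eq_pow_val, ← map_pow, hy, map_one, Units.val_one]
  have h2 : ‖((ψ y : ℂˣ) : ℂ)‖ = 1 := Complex.norm_eq_one_of_pow_eq_one h1 Nat.card_pos.ne'
  rw [map_inv, Units.val_inv_eq_inv_val, Complex.inv_eq_conj h2]

end Fourier

section Sum

variable [Fintype P] [Fintype (P →* ℂˣ)] [Finite G]

open scoped Classical in
/-- Column orthogonality over the nontrivial characters. -/
theorem AbF.sum_DP [Fintype (DP P)] (h : AbF P p) (u : P) :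
    ∑ d : DP P, ((d.1 u : ℂˣ) : ℂ) = (if u = 1 then (Nat.card P : ℂ) else 0) - 1 := by
  have h2 := Fintype.sum_eq_add_sum_subtype_ne (fun Y : P →* ℂˣ => ((Y u : ℂˣ) : ℂ)) 1
  rw [sum_hom h.comm u] at h2
  have h3 : ((((1 : P →* ℂˣ) u : ℂˣ)) : ℂ) = 1 := by simp
  rw [h3] at h2
  rw [h2, add_sub_cancel_left]
  apply Finset.sum_congr
  · ext x
    simp
  · intro _ _
    rfl

end Sum

section Fourier2

variable [Fintype G] [Fintype (IrrCharacter G)] [Fintype P] [Fintype (P →* ℂˣ)] [Fintype (DP P)]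
  {M : Ideal AlgInt}

/-- Fourier inversion. -/
theorem AbF.value_eq_sum (h : AbF P p) (j : IrrCharacter G) {y₀ : P} (hy₀ : y₀ ≠ 1) :
    (j : G → ℂ) y₀ = ∑ d : DP P, (cc P d.1 j : ℂ) * ((d.1 y₀ : ℂˣ) : ℂ) := by
  classical
  have hP0 : (Nat.card P : ℂ) ≠ 0 := Nat.cast_ne_zero.mpr Nat.card_pos.ne'
  have hev : ∑ d : DP P, ((d.1 y₀ : ℂˣ) : ℂ) = -1 := by
    rw [h.sum_DP, if_neg hy₀, zero_sub]
  have hkey : ∀ y : P, ∑ d : DP P, conj (((d.1 y : ℂˣ) : ℂ) - 1) * ((d.1 y₀ : ℂˣ) : ℂ) =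
      if y = y₀ then (Nat.card P : ℂ) else 0 := by
    intro y
    have h1 : ∀ d : DP P, conj (((d.1 y : ℂˣ) : ℂ) - 1) * ((d.1 y₀ : ℂˣ) : ℂ) =
        ((d.1 (y⁻¹ * y₀) : ℂˣ) : ℂ) - ((d.1 y₀ : ℂˣ) : ℂ) := by
      intro d
      rw [map_sub, conj_hom, map_one, map_mul, Units.val_mul]
      ring
    simp only [h1]
    rw [Finset.sum_sub_distrib, hev, h.sum_DP]
    by_cases hy : y = y₀
    · rw [if_pos hy, if_pos (by rw [hy, inv_mul_cancel])]
      ring
    · rw [if_neg hy, if_neg (fun h2 => hy (inv_mul_eq_one.mp h2))]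
      ring
  have h1 : ∀ d : DP P, (cc P d.1 j : ℂ) * ((d.1 y₀ : ℂˣ) : ℂ) =
      (Nat.card P : ℂ)⁻¹ * ∑ y : P, (j : G → ℂ) y * (conj (((d.1 y : ℂˣ) : ℂ) - 1) * ((d.1 y₀ : ℂˣ) : ℂ)) := by
    intro d
    rw [cc_conj, mul_assoc, Finset.sum_mul]
    congr 1
    refine Finset.sum_congr rfl fun y _ => ?_
    ring
  simp only [h1]
  rw [← Finset.mul_sum, Finset.sum_comm]
  simp only [← Finset.mul_sum, hkey]
  simp only [mul_ite, mul_zero]
  rw [Finset.sum_ite_eq' Finset.univ y₀]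
  simp only [Finset.mem_univ, if_true]
  field_simp

end Fourier2

section Main

variable [Fintype G] [Fintype (IrrCharacter G)] [Fintype P] [Fintype (Nn P)] [Fintype (P →* ℂˣ)]
  [Fintype (DP P)] {M : Ideal AlgInt}

theorem AbF.card_DP (h : AbF P p) : Fintype.card (DP P) = Nat.card P - 1 := by
  classical
  have h1 : Fintype.card (DP P) = Fintype.card (P →* ℂˣ) - 1 := by
    rw [Fintype.card_subtype_compl]
    simp
  rw [h1, ← Nat.card_eq_fintype_card, card_hom h.comm]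

theorem AbF.card_class (h : AbF P p) {m : ℕ} (hm : Nat.card (Nn P) = m * Nat.card (Cn P)) (b : DP P) :
    Nat.card {a : DP P // (rP P) a b} = m := by
  classical
  let f : Nn P → DP P := fun n => ⟨ac P n b.1, ac_ne_one b.2 n⟩
  have hf : ∀ n n', f n = f n' ↔ n⁻¹ * n' ∈ CC P := by
    intro n n'
    rw [← h.ac_eq_ac_iff b.2 n n']
    exact Subtype.ext_iff
  have h1 := sum_fiber (CC P) f hf (fun _ => (1 : ℂ))
  have h2 : Nat.card {a : DP P // (rP P) a b} = (Finset.univ.image f).card := by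
    rw [Nat.card_eq_fintype_card, Fintype.card_subtype]
    congr 1
    ext a
    simp only [Finset.mem_filter, Finset.mem_univ, true_and, Finset.mem_image]
    constructor
    · rintro ⟨n, hn⟩
      exact ⟨n, Subtype.ext hn.symm⟩
    · rintro ⟨n, rfl⟩
      exact ⟨n, rfl⟩
  rw [h2]
  simp only [Finset.sum_const, Finset.card_univ, nsmul_eq_mul, mul_one, card_CC] at h1
  rw [← Nat.card_eq_fintype_card, hm] at h1
  have h3 : m * Nat.card (Cn P) = Nat.card (Cn P) * (Finset.univ.image f).card := by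
    exact_mod_cast h1
  rw [mul_comm] at h3
  exact (Nat.eq_of_mul_eq_mul_left Nat.card_pos h3).symm

/-- The output of the structure theorem. -/
theorem AbF.exists_struct (h : AbF P p) (hM : IsPModular p M) {m : ℕ}
    (hm : Nat.card (Nn P) = m * Nat.card (Cn P)) (hm2 : m + 1 < Nat.card P) :
    ∃ (ε b : ℤ) (t : ℕ) (z : IrrCharacter G → ℤ) (μ : Fin t → IrrCharacter G) (cls : DP P → Fin t),
      (ε = 1 ∨ ε = -1) ∧ t * m = Nat.card P - 1 ∧ 2 ≤ t ∧
      (∑ j, z j ^ 2) + 2 * ε * b + t * b ^ 2 = m ∧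
      Function.Injective μ ∧ (∀ i, z (μ i) = 0) ∧
      (∀ a c, cls a = cls c ↔ (rP P) a c) ∧ Function.Surjective cls ∧
      (∀ (d : DP P) g, ThP M P d.1 g = (∑ j, (z j : ℂ) * (j : G → ℂ) g) + (b : ℂ) * (∑ k, (μ k : G → ℂ) g) +
        (ε : ℂ) * (μ (cls d) : G → ℂ) g) ∧
      (∀ (d : DP P) (j : IrrCharacter G), (∀ k, μ k ≠ j) → mm M P d.1 j = z j) ∧
      (∀ (d : DP P) k, mm M P d.1 (μ k) = b + ε * (if cls d = k then 1 else 0)) := by
  classical
  obtain ⟨ε, b, t, z, μ, A, cls, hε, hte, ht, hnorm, hinj, hz, hcls, hsurj, hΘ, hA, hin1, hin2⟩ :=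
    Cfsg.Agent.Lib.ModRep.Struct2.core0 (rP P) (fun d : DP P => ThP M P d.1) m (Nat.card P) (by omega)
      (fun d => isGen_ThP d.1) (fun d => ThP_one h hM d.1)
      (by
        intro a b hab
        have hab' : ∃ n : Nn P, b.1 = ac P n a.1 := (rP P).symm hab
        rw [h.gram hM hm a.2 b.2, if_pos hab'])
      (by
        intro a b hab
        have hab' : ¬ ∃ n : Nn P, b.1 = ac P n a.1 := fun h1 => hab ((rP P).symm h1)
        rw [h.gram hM hm a.2 b.2, if_neg hab', add_zero])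
      (h.card_class hm) h.card_DP (by omega)
  refine ⟨ε, b, t, z, μ, cls, hε, hte, ht, hnorm, hinj, hz, hcls, hsurj, ?_, ?_, ?_⟩
  · intro d g
    rw [← hA]
    exact congrFun (hΘ d) g
  · intro d j hj
    have h1 := hin1 (cls d) j hj
    rw [← hΘ, classInner_ThP] at h1
    exact_mod_cast h1
  · intro d k
    have h1 := hin2 (cls d) k
    rw [← hΘ, classInner_ThP] at h1
    exact_mod_cast h1

end Main

section Values

variable [Fintype G] [Fintype (IrrCharacter G)] {M : Ideal AlgInt}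

/-- A member of the principal block does not vanish on `P`. -/
theorem AbF.value_ne_zero (h : AbF P p) (hM : IsPModular p M) {χ : IrrCharacter G}
    (hχ : χ ∈ principalBlock M G) {y : G} (hy : y ∈ P) : (χ : G → ℂ) y ≠ 0 := by
  classical
  intro hzero
  have h1 : χ ∈ blockOf M ((Cfsg.Agent.Lib.Blocks.Third.oneI G : IrrCharacter G) : G → ℂ) := hχ
  have h2 := h1 y
  have h3 : centralChar (χ : G → ℂ) y = 0 := by
    unfold centralChar
    rw [hzero]
    simp
  have h4 : centralChar ((Cfsg.Agent.Lib.Blocks.Third.oneI G : IrrCharacter G) : G → ℂ) y =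
      ((Subgroup.centralizer ({y} : Set G)).index : ℂ) := by
    unfold centralChar
    simp
  rw [h3, h4, sub_zero] at h2
  have h6 := (natCast_memLocalIdeal_iff hM _).mp h2
  have hle : P ≤ Subgroup.centralizer ({y} : Set G) := by
    intro x hx
    rw [Subgroup.mem_centralizer_singleton_iff]
    exact h.ab x hx y hy
  apply h.syl
  rw [← Subgroup.relIndex_mul_index hle]
  exact h6.mul_left _

/-- Values on `p`-sections. -/
theorem AbF.value_of_isPPart (h : AbF P p) (hM : IsPModular p M) {χ : IrrCharacter G}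
    (hχ : χ ∈ principalBlock M G) {z y : G} (hz : IsPPart p z y) (hy : y ∈ P) (hy1 : y ≠ 1) :
    (χ : G → ℂ) z = (χ : G → ℂ) y := by
  classical
  obtain ⟨v, rfl, hc, hpow, hv⟩ := hz
  obtain ⟨K, hK, hcard, hidx⟩ := h.exists_complement hy hy1
  obtain ⟨k, hk⟩ := h.card_pow
  have hvC : v ∈ Subgroup.centralizer ({y} : Set G) := by
    rw [Subgroup.mem_centralizer_singleton_iff]
    exact hc.symm
  haveI := isPrime_of_pModular hM
  have hvK : (⟨v, hvC⟩ : Subgroup.centralizer ({y} : Set G)) ∈ K := by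
    haveI := hK
    have := Cfsg.Agent.Lib.Char.Ortho.finite_irrCharacter (G := Subgroup.centralizer ({y} : Set G))
    letI : Fintype (IrrCharacter (Subgroup.centralizer ({y} : Set G))) := Fintype.ofFinite _
    letI : Fintype (Subgroup.centralizer ({y} : Set G)) := Fintype.ofFinite _
    apply Cfsg.Agent.Lib.Blocks.NormSum.mem_of_not_dvd_of_index (p := p) (k := k) (by rw [hidx, hk]) hp.out
    rwa [Subgroup.orderOf_mk]
  exact value_eq_of_mem hM hpow rfl hK hcard hχ hvK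

theorem cc_oneI [Fintype P] (h : AbF P p) {ψ : P →* ℂˣ} (hψ : ψ ≠ 1) :
    cc P ψ (Cfsg.Agent.Lib.Blocks.Third.oneI G) = -1 := by
  classical
  have h1 : (cc P ψ (Cfsg.Agent.Lib.Blocks.Third.oneI G) : ℂ) = -1 := by
    rw [← cc_spec, AA]
    simp only [Cfsg.Agent.Lib.Blocks.Third.oneI_apply, map_one, mul_one]
    have h2 := classInner_hom_hom ψ 1
    rw [if_neg hψ, classInner] at h2
    simp only [MonoidHom.one_apply, Units.val_one, map_one, mul_one] at h2
    rw [Finset.sum_sub_distrib, mul_sub, h2]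
    simp only [Finset.sum_const, Finset.card_univ, nsmul_eq_mul, mul_one, ← Nat.card_eq_fintype_card]
    have hP0 : (Nat.card P : ℂ) ≠ 0 := Nat.cast_ne_zero.mpr Nat.card_pos.ne'
    field_simp
    ring
  exact_mod_cast h1

end Values

section Main2

variable [Fintype G] [Fintype (IrrCharacter G)] [Fintype P] [Fintype (Nn P)] [Fintype (P →* ℂˣ)]
  [Fintype (DP P)] {M : Ideal AlgInt}

/-- **The structure of the principal block.** -/
theorem AbF.main (h : AbF P p) (hM : IsPModular p M) {m : ℕ}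
    (hm : Nat.card (Nn P) = m * Nat.card (Cn P)) (hm2 : m + 1 < Nat.card P) :
    ∃ (ε b : ℤ) (t : ℕ) (z : IrrCharacter G → ℤ) (μ : Fin t → IrrCharacter G) (cls : DP P → Fin t),
      (ε = 1 ∨ ε = -1) ∧ t * m = Nat.card P - 1 ∧ 2 ≤ t ∧
      (∑ j, z j ^ 2) + 2 * ε * b + t * b ^ 2 = m ∧
      Function.Injective μ ∧ (∀ i, z (μ i) = 0) ∧
      (∀ a c, cls a = cls c ↔ (rP P) a c) ∧ Function.Surjective cls ∧
      (∀ k, μ k ∈ principalBlock M G) ∧ (∀ j, j ∉ principalBlock M G → z j = 0) ∧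
      (∀ k, μ k ≠ Cfsg.Agent.Lib.Blocks.Third.oneI G) ∧
      (∀ j ∈ principalBlock M G, (∀ k, μ k ≠ j) → ∀ y₀ : P, y₀ ≠ 1 → (j : G → ℂ) y₀ = - (z j : ℂ)) ∧
      (∀ k, ∀ y₀ : P, y₀ ≠ 1 → (μ k : G → ℂ) y₀ =
        - (b : ℂ) + (ε : ℂ) * ∑ d : DP P, if cls d = k then ((d.1 y₀ : ℂˣ) : ℂ) else 0) ∧
      (∀ i g, ¬ p ∣ orderOf g → (∑ j, (z j : ℂ) * (j : G → ℂ) g) + (b : ℂ) * (∑ k, (μ k : G → ℂ) g) +
        (ε : ℂ) * (μ i : G → ℂ) g = 0) := by
  classical
  haveI := isPrime_of_pModular hM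
  obtain ⟨ε, b, t, z, μ, cls, hε, hte, ht, hnorm, hinj, hz, hcls, hsurj, hΘ, hin1, hin2⟩ :=
    h.exists_struct hM hm hm2
  have hε0 : ε ≠ 0 := by
    rcases hε with rfl | rfl <;> norm_num
  have hne : ∀ k : Fin t, ∃ d₁ d₂ : DP P, cls d₁ = k ∧ cls d₂ ≠ k := by
    intro k
    haveI : Nontrivial (Fin t) := Fin.nontrivial_iff_two_le.mpr ht
    obtain ⟨k', hk'⟩ := exists_ne k
    obtain ⟨d₁, hd₁⟩ := hsurj k
    obtain ⟨d₂, hd₂⟩ := hsurj k'
    exact ⟨d₁, d₂, hd₁, by rwa [hd₂]⟩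
  have hμB : ∀ k, μ k ∈ principalBlock M G := by
    intro k
    by_contra hk
    obtain ⟨d₁, d₂, hd₁, hd₂⟩ := hne k
    have h1 := hin2 d₁ k
    have h2 := hin2 d₂ k
    rw [mm, if_neg hk, if_pos hd₁] at h1
    rw [mm, if_neg hk, if_neg hd₂] at h2
    apply hε0
    linarith
  have hd0 : Nonempty (DP P) := by
    obtain ⟨d₁, _, _, _⟩ := hne ⟨0, by omega⟩
    exact ⟨d₁⟩
  have hone : ∀ d : DP P, mm M P d.1 (Cfsg.Agent.Lib.Blocks.Third.oneI G) = -1 := by
    intro d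
    rw [mm, if_pos, cc_oneI h d.2]
    rw [Cfsg.Agent.Lib.Blocks.Third.principalBlock_eq_blockOf]
    exact mem_blockOf_self _
  refine ⟨ε, b, t, z, μ, cls, hε, hte, ht, hnorm, hinj, hz, hcls, hsurj, hμB, ?_, ?_, ?_, ?_, ?_⟩
  · intro j hj
    obtain ⟨d⟩ := hd0
    have h1 := hin1 d j (fun k hk => hj (hk ▸ hμB k))
    rw [mm, if_neg hj] at h1
    exact h1.symm
  · intro k hk
    obtain ⟨d₁, d₂, hd₁, hd₂⟩ := hne k
    have h1 := hin2 d₁ k
    have h2 := hin2 d₂ k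
    rw [hk, hone, if_pos hd₁] at h1
    rw [hk, hone, if_neg hd₂] at h2
    apply hε0
    linarith
  · intro j hj hμ y₀ hy₀
    rw [h.value_eq_sum j hy₀]
    have h1 : ∀ d : DP P, (cc P d.1 j : ℂ) = (z j : ℂ) := by
      intro d
      have h2 := hin1 d j hμ
      rw [mm, if_pos hj] at h2
      rw [h2]
    simp only [h1]
    rw [← Finset.mul_sum, h.sum_DP, if_neg hy₀]
    ring
  · intro k y₀ hy₀
    rw [h.value_eq_sum (μ k) hy₀]
    have h1 : ∀ d : DP P, (cc P d.1 (μ k) : ℂ) * ((d.1 y₀ : ℂˣ) : ℂ) =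
        (b : ℂ) * ((d.1 y₀ : ℂˣ) : ℂ) + (ε : ℂ) * if cls d = k then ((d.1 y₀ : ℂˣ) : ℂ) else 0 := by
      intro d
      have h2 := hin2 d k
      rw [mm, if_pos (hμB k)] at h2
      rw [h2]
      by_cases hd : cls d = k
      · simp only [if_pos hd]
        push_cast
        ring
      · simp only [if_neg hd]
        push_cast
        ring
    simp only [h1]
    rw [Finset.sum_add_distrib, ← Finset.mul_sum, ← Finset.mul_sum, h.sum_DP, if_neg hy₀]
    ring
  · intro i g hg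
    obtain ⟨d, hd⟩ := hsurj i
    rw [← hd, ← hΘ, ThP_of_regular h hM _ hg]

end Main2

end Cfsg.Agent.Lib.ModRep.AbFrob
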