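import Cfsg.Agent.Lib.ModRep.AbFrob3

/-!
# The principal block for an abelian Sylow subgroup with free automizer, in final form
-/

set_option autoImplicit false
set_option linter.style.haveILetI false
set_option linter.unusedSectionVars false

namespace Cfsg.Agent.Lib.ModRep.AbFrob

open Cfsg
open Cfsg.Agent.Lib.Blocks.Local Cfsg.Agent.Lib.Blocks.Central Cfsg.Agent.Lib.Blocks.General
open Cfsg.Agent.Lib.Char.Ortho Cfsg.Agent.Lib.ExcP.Gram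
open scoped ComplexConjugate

universe u

variable {G : Type u} [Group G] {p : ℕ} [hp : Fact p.Prime] {P : Subgroup G}

/-- The relation in the statement is the action `ac`. -/
theorem eq_ac_of_forall {ψ ψ' : P →* ℂˣ} {n : G} (hn : n ∈ Nn P)
    (h : ∀ w w' : P, (w' : G) = n * w * n⁻¹ → ψ' w' = ψ w) : ψ' = ac P ⟨n, hn⟩ ψ := by
  ext y
  rw [ac_apply]
  rw [h (cjP P ⟨n, hn⟩ y) y (by simp; group)]

theorem forall_of_eq_ac {ψ : P →* ℂˣ} (n : Nn P) (w w' : P) (hw : (w' : G) = n * w * (n : G)⁻¹) :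
    ac P n ψ w' = ψ w := by
  rw [ac_apply]
  congr 1
  apply Subtype.ext
  simp [hw]
  group


theorem AbF.final [Finite G] (h : AbF P p) {M : Ideal AlgInt} (hM : IsPModular p M) (hP1 : Nat.card P ≠ 1) (m : ℕ) (hm1 : 1 < m)
    (hm2 : m + 1 < Nat.card P)
    (hCN : (Subgroup.centralizer (P : Set G)).relIndex (Subgroup.normalizer (P : Set G)) = m) :
    ∃ (s : ℕ) (X Y : Set (Cfsg.IrrCharacter G)), s ≤ m ∧ Cfsg.principalBlock M G = X ∪ Y ∧ Disjoint X Y ∧ Nat.card X = s ∧ Nat.card Y = (Nat.card P - 1) / m ∧ (∃ χ₁ ∈ X, (χ₁ : G → ℂ) = fun _ => 1) ∧ ∃ (a : Cfsg.IrrCharacter G → ℤ) (d δ : ℤ) (ζ : (P →* ℂˣ) → Cfsg.IrrCharacter G), (δ = 1 ∨ δ = -1) ∧ (∀ χ ∈ X, a χ ≠ 0 ∧ ∀ z y : G, Cfsg.IsPPart p z y → y ∈ P → y ≠ 1 → (χ : G → ℂ) z = (a χ : ℂ)) ∧ (∀ ψ : P →* ℂˣ, ψ ≠ 1 → ζ ψ ∈ Y) ∧ (∀ η ∈ Y, ∃ ψ : P →* ℂˣ, ψ ≠ 1 ∧ ζ ψ = η) ∧ (∀ ψ ψ' : P →* ℂˣ, ψ ≠ 1 → (∃ n : G, n ∈ Subgroup.normalizer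 (P : Set G) ∧ ∀ w w' : P, (w' : G) = n * w * n⁻¹ → ψ' w' = ψ w) → ζ ψ' = ζ ψ) ∧ (∀ ψ : P →* ℂˣ, ψ ≠ 1 → ∀ (z : G) (y : P), Cfsg.IsPPart p z (y : G) → (y : G) ≠ 1 → (ζ ψ : G → ℂ) z = (d : ℂ) + (δ : ℂ) * ∑ᶠ ψ' ∈ {ψ' : P →* ℂˣ | ∃ n : G, n ∈ Subgroup.normalizer (P : Set G) ∧ ∀ w w' : P, (w' : G) = n * w * n⁻¹ → ψ' w' = ψ w}, ((ψ' y : ℂˣ) : ℂ)) ∧ ((d - δ) ^ 2 + ((Nat.card P - 1) / m - 1 : ℤ) * d ^ 2 + ∑ᶠ χ ∈ X, a χ ^ 2 = (m : ℤ) + 1) ∧ (∀ η ∈ Y, ∀ η' ∈ Y, ∀ g : G, ¬ p ∣ orderOf g → (η : G → ℂ) g = (η' : G → ℂ) g) ∧ (∀ η ∈ Y, ∀ g : G, ¬ p ∣ orderOf g → ((((Nat.card P - 1) / m : ℕ) : ℂ) * d - δ) * (η : G → ℂ) g + ∑ᶠ χ ∈ X, (a χ : ℂ) * (χ : G → ℂ) g = 0) := by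
  classical
  letI : Fintype G := Fintype.ofFinite G
  have := Cfsg.Agent.Lib.Char.Ortho.finite_irrCharacter (G := G)
  letI : Fintype (IrrCharacter G) := Fintype.ofFinite _
  letI : Fintype P := Fintype.ofFinite _
  letI : Fintype (Nn P) := Fintype.ofFinite _
  have := finite_hom h.comm
  letI : Fintype (P →* ℂˣ) := Fintype.ofFinite _
  letI : Fintype (DP P) := Fintype.ofFinite _
  haveI := isPrime_of_pModular hM
  have hN : Nat.card (Nn P) = m * Nat.card (Cn P) := by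
    have hle : Cn P ≤ Nn P := Subgroup.centralizer_le_normalizer _
    have h1 := Subgroup.card_mul_index ((Cn P).subgroupOf (Nn P))
    have h2 : Nat.card ((Cn P).subgroupOf (Nn P)) = Nat.card (Cn P) :=
      Nat.card_congr (Subgroup.subgroupOfEquivOfLe hle).toEquiv
    rw [h2] at h1
    rw [← h1, ← hCN, mul_comm]
    rfl
  obtain ⟨ε, b, t, z, μ, cls, hε, hte, ht, hnorm, hinj, hz, hcls, hsurj, hμB, hzB, hμ1, hval1, hval2, hrel⟩ :=
    h.main hM hN hm2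
  -- a nonidentity element
  obtain ⟨y₁, hy₁⟩ : ∃ y₁ : P, y₁ ≠ 1 := by
    haveI : Nontrivial P := by
      rw [← Finite.one_lt_card_iff_nontrivial]
      have := (Nat.card_pos (α := P))
      omega
    exact exists_ne 1
  have hm0 : 0 < m := by omega
  have hB : ∀ χ ∈ principalBlock M G, χ ∉ Set.range μ → ∀ (y₀ : P), y₀ ≠ 1 → (χ : G → ℂ) y₀ = ((- z χ : ℤ) : ℂ) := by
    intro χ hχ hχ' y₀ hy₀
    rw [hval1 χ hχ (fun k hk => hχ' ⟨k, hk⟩) y₀ hy₀]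
    push_cast
    rfl
  have hzne : ∀ χ ∈ principalBlock M G, χ ∉ Set.range μ → z χ ≠ 0 := by
    intro χ hχ hχ' h0
    have h1 := hB χ hχ hχ' y₁ hy₁
    rw [h0] at h1
    exact h.value_ne_zero hM hχ y₁.2 (by simpa using h1)
  set X : Set (IrrCharacter G) := principalBlock M G \ Set.range μ with hX
  set Xf : Finset (IrrCharacter G) := Finset.univ.filter (· ∈ X) with hXf
  have hXfX : (↑Xf : Set (IrrCharacter G)) = X := by
    ext χ
    simp [hXf]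
  have hzsum : ∑ j, z j ^ 2 = ∑ χ ∈ Xf, z χ ^ 2 := by
    symm
    apply Finset.sum_subset (Finset.subset_univ _)
    intro j _ hj
    have hj' : j ∉ X := by simpa [hXf] using hj
    by_cases hjB : j ∈ principalBlock M G
    · have : j ∈ Set.range μ := by
        by_contra h1
        exact hj' ⟨hjB, h1⟩
      obtain ⟨k, rfl⟩ := this
      rw [hz, zero_pow two_ne_zero]
    · rw [hzB j hjB, zero_pow two_ne_zero]
  have hzsum2 : ∀ g : G, ∑ j, (z j : ℂ) * (j : G → ℂ) g = - ∑ χ ∈ Xf, ((- z χ : ℤ) : ℂ) * (χ : G → ℂ) g := by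
    intro g
    rw [← Finset.sum_neg_distrib]
    symm
    have h1 : ∀ χ ∈ Xf, - (((- z χ : ℤ) : ℂ) * (χ : G → ℂ) g) = (z χ : ℂ) * (χ : G → ℂ) g := by
      intro χ _
      push_cast
      ring
    rw [Finset.sum_congr rfl h1]
    apply Finset.sum_subset (Finset.subset_univ _)
    intro j _ hj
    have hj' : j ∉ X := by simpa [hXf] using hj
    by_cases hjB : j ∈ principalBlock M G
    · have : j ∈ Set.range μ := by
        by_contra h1
        exact hj' ⟨hjB, h1⟩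
      obtain ⟨k, rfl⟩ := this
      rw [hz]
      simp
    · rw [hzB j hjB]
      simp
  have hnorm1 : ∑ χ ∈ Xf, z χ ^ 2 + 2 * ε * b + t * b ^ 2 = m := by
    rw [← hzsum]
    exact hnorm
  have hε2 : ε ^ 2 = 1 := by
    rcases hε with rfl | rfl <;> norm_num
  have ht' : (2 : ℤ) ≤ t := by exact_mod_cast ht
  have hpos : 1 ≤ (b + ε) ^ 2 + ((t : ℤ) - 1) * b ^ 2 := by
    by_cases hb : b = 0
    · subst hb
      simp [hε2]
    · have h1 : 1 ≤ b ^ 2 := by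
        have := sq_nonneg b
        have h2 : b ^ 2 ≠ 0 := pow_ne_zero 2 hb
        omega
      nlinarith [sq_nonneg (b + ε)]
  have hs : Nat.card X ≤ m := by
    have h1 : Nat.card X = Xf.card := by
      rw [← hXfX]
      simp
    rw [h1]
    have h2 : ((Xf.card : ℕ) : ℤ) ≤ ∑ χ ∈ Xf, z χ ^ 2 := by
      rw [Finset.card_eq_sum_ones]
      push_cast
      apply Finset.sum_le_sum
      intro χ hχ
      have hχ' : χ ∈ X := by simpa [hXf] using hχ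
      have h3 := hzne χ hχ'.1 hχ'.2
      have h4 : z χ ^ 2 ≠ 0 := pow_ne_zero 2 h3
      have := sq_nonneg (z χ)
      omega
    have h5 : ((Xf.card : ℕ) : ℤ) ≤ m := by
      nlinarith
    exact_mod_cast h5
  have htdiv : (Nat.card P - 1) / m = t := Nat.div_eq_of_eq_mul_left hm0 hte.symm
  have hPt : ((Nat.card P : ℤ) - 1) = t * m := by
    have h1 : 1 ≤ Nat.card P := Nat.card_pos
    have h2 : ((Nat.card P - 1 : ℕ) : ℤ) = t * m := by
      rw [← hte]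
      push_cast
      rfl
    rw [← h2]
    push_cast [h1]
    rfl
  have htdivZ : ((Nat.card P : ℤ) - 1) / (m : ℤ) = t := by
    rw [hPt]
    exact Int.mul_ediv_cancel _ (by exact_mod_cast hm0.ne')
  have hYreg : ∀ i k : Fin t, ∀ g : G, ¬ p ∣ orderOf g → (μ i : G → ℂ) g = (μ k : G → ℂ) g := by
    intro i k g hg
    have h1 := hrel i g hg
    have h2 := hrel k g hg
    have h3 : (ε : ℂ) * ((μ i : G → ℂ) g - (μ k : G → ℂ) g) = 0 := by
      linear_combination h1 - h2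
    have hε0 : (ε : ℂ) ≠ 0 := by
      rcases hε with rfl | rfl <;> norm_num
    exact sub_eq_zero.mp ((mul_eq_zero.mp h3).resolve_left hε0)
  -- the map `ζ`
  let ζ : (P →* ℂˣ) → IrrCharacter G := fun ψ => if hψ : ψ ≠ 1 then μ (cls ⟨ψ, hψ⟩) else μ ⟨0, by omega⟩
  have hζ : ∀ (ψ : P →* ℂˣ) (hψ : ψ ≠ 1), ζ ψ = μ (cls ⟨ψ, hψ⟩) := by
    intro ψ hψ
    simp only [ζ, dif_pos hψ]
  have hζB : ∀ ψ : P →* ℂˣ, ζ ψ ∈ principalBlock M G := by
    intro ψ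
    by_cases hψ : ψ ≠ 1
    · rw [hζ ψ hψ]
      exact hμB _
    · simp only [ζ, dif_neg hψ]
      exact hμB _
  refine ⟨Nat.card X, X, Set.range μ, hs, ?_, Set.disjoint_sdiff_left, rfl, ?_, ?_, fun χ => - z χ, - b, ε, ζ, hε, ?_, ?_, ?_, ?_, ?_, ?_, ?_, ?_⟩
  · rw [hX, Set.sdiff_union_of_subset]
    rintro _ ⟨k, rfl⟩
    exact hμB k
  · rw [Nat.card_range_of_injective hinj, Nat.card_eq_fintype_card, Fintype.card_fin, htdiv]
  · refine ⟨Cfsg.Agent.Lib.Blocks.Third.oneI G, ⟨?_, ?_⟩, ?_⟩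
    · rw [Cfsg.Agent.Lib.Blocks.Third.principalBlock_eq_blockOf]
      exact mem_blockOf_self _
    · rintro ⟨k, hk⟩
      exact hμ1 k hk
    · funext x
      simp
  · intro χ hχ
    refine ⟨neg_ne_zero.mpr (hzne χ hχ.1 hχ.2), ?_⟩
    intro w y hw hy hy1
    rw [h.value_of_isPPart hM hχ.1 hw hy hy1]
    exact hB χ hχ.1 hχ.2 ⟨y, hy⟩ (fun h1 => hy1 (congrArg Subtype.val h1))
  · intro ψ hψ
    rw [hζ ψ hψ]
    exact ⟨_, rfl⟩
  · rintro _ ⟨k, rfl⟩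
    obtain ⟨d, rfl⟩ := hsurj k
    exact ⟨d.1, d.2, by rw [hζ d.1 d.2]⟩
  · rintro ψ ψ' hψ ⟨n, hn, hnψ⟩
    have h1 := eq_ac_of_forall hn hnψ
    have hψ' : ψ' ≠ 1 := by
      rw [h1]
      exact ac_ne_one hψ _
    rw [hζ ψ hψ, hζ ψ' hψ']
    congr 1
    exact (hcls _ _).mpr ⟨⟨n, hn⟩, h1⟩
  · intro ψ hψ w y hw hy1
    rw [h.value_of_isPPart hM (hζB ψ) hw y.2 hy1, hζ ψ hψ]
    have hy1' : y ≠ 1 := fun h1 => hy1 (congrArg Subtype.val h1)
    rw [hval2 _ y hy1']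
    push_cast
    congr 2
    let T : Finset (P →* ℂˣ) := (Finset.univ.filter fun d : DP P => cls d = cls ⟨ψ, hψ⟩).map
      (Function.Embedding.subtype _)
    have hT : (↑T : Set (P →* ℂˣ)) = {ψ' : P →* ℂˣ | ∃ n : G, n ∈ Subgroup.normalizer (P : Set G) ∧
        ∀ w w' : P, (w' : G) = n * w * n⁻¹ → ψ' w' = ψ w} := by
      ext ψ'
      simp only [T, Finset.coe_map, Set.mem_image, Finset.mem_coe, Finset.mem_filter, Finset.mem_univ,
        true_and, Function.Embedding.coe_subtype, Set.mem_ofPred_eq]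
      constructor
      · rintro ⟨d, hd, rfl⟩
        obtain ⟨n, hn⟩ := (hcls _ _).mp hd
        refine ⟨n, n.2, fun w w' hw => ?_⟩
        rw [hn]
        exact forall_of_eq_ac n w w' hw
      · rintro ⟨n, hn, hnψ⟩
        have h1 := eq_ac_of_forall hn hnψ
        have hψ' : ψ' ≠ 1 := by
          rw [h1]
          exact ac_ne_one hψ _
        exact ⟨⟨ψ', hψ'⟩, (hcls _ _).mpr ⟨⟨n, hn⟩, h1⟩, rfl⟩
    rw [← hT, finsum_mem_coe_finset, Finset.sum_map, Finset.sum_filter]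
    rfl
  · rw [htdivZ]
    have h1 : (↑(Finset.univ.filter (· ∈ X)) : Set (IrrCharacter G)) = X := hXfX
    rw [← hXfX, finsum_mem_coe_finset]
    simp only [neg_sq]
    linear_combination hnorm1 + hε2
  · rintro _ ⟨i, rfl⟩ _ ⟨k, rfl⟩ g hg
    exact hYreg i k g hg
  · rintro _ ⟨i, rfl⟩ g hg
    rw [← hXfX, finsum_mem_coe_finset, htdiv]
    have h1 := hrel i g hg
    rw [hzsum2] at h1
    have h2 : ∑ k, (μ k : G → ℂ) g = (t : ℂ) * (μ i : G → ℂ) g := by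
      rw [Finset.sum_congr rfl (fun k _ => hYreg k i g hg), Finset.sum_const, Finset.card_univ,
        Fintype.card_fin, nsmul_eq_mul]
    rw [h2] at h1
    push_cast at h1 ⊢
    linear_combination -h1

end Cfsg.Agent.Lib.ModRep.AbFrob
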