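import Cfsg.Agent.Lib.ModRep.AbFrob3

/-!
# The principal block when the automizer has order three: the normal form
-/

set_option autoImplicit false
set_option linter.style.haveILetI false
set_option linter.unusedSectionVars false

namespace Cfsg.Agent.Lib.ModRep.AbFrob

open Cfsg
open Cfsg.Agent.Lib.Blocks.Local Cfsg.Agent.Lib.Blocks.Central Cfsg.Agent.Lib.Blocks.General
open Cfsg.Agent.Lib.Char.Ortho Cfsg.Agent.Lib.ExcP.Gram
open Cfsg.Agent.Lib.Blocks.Third (oneI)
open scoped ComplexConjugate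

universe u

variable {G : Type u} [Group G] {p : ℕ} [hp : Fact p.Prime] {P : Subgroup G}

section Main

variable [Fintype G] [Fintype (IrrCharacter G)] [Fintype P] [Fintype (Nn P)] [Fintype (P →* ℂˣ)]
  [Fintype (DP P)] {M : Ideal AlgInt}

theorem card_ne_ten (h : AbF P p) : Nat.card P ≠ 10 := by
  intro h10
  obtain ⟨k, hk⟩ := h.card_pow
  rw [h10] at hk
  have h2 : 2 ∣ p ^ k := by rw [← hk]; norm_num
  have h5 : 5 ∣ p ^ k := by rw [← hk]; norm_num
  have h2' : 2 = p := (Nat.prime_dvd_prime_iff_eq Nat.prime_two hp.out).mp (Nat.Prime.dvd_of_dvd_pow Nat.prime_two h2)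
  have h5' : 5 = p := (Nat.prime_dvd_prime_iff_eq Nat.prime_five hp.out).mp (Nat.Prime.dvd_of_dvd_pow Nat.prime_five h5)
  omega

open scoped Classical in
/-- The normal form for automizer of order three. -/
theorem AbF.main3 (h : AbF P p) (hM : IsPModular p M)
    (hm : Nat.card (Nn P) = 3 * Nat.card (Cn P)) (hm2 : 4 < Nat.card P) :
    ∃ (δ : ℤ) (t : ℕ) (a : IrrCharacter G → ℤ) (μ : Fin t → IrrCharacter G) (cls : DP P → Fin t)
      (X : Finset (IrrCharacter G)),
      (δ = 1 ∨ δ = -1) ∧ t * 3 = Nat.card P - 1 ∧ 2 ≤ t ∧ Function.Injective μ ∧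
      (∀ a c, cls a = cls c ↔ (rP P) a c) ∧ Function.Surjective cls ∧
      (∀ k, μ k ∈ principalBlock M G) ∧ (∀ k, μ k ≠ oneI G) ∧
      (∀ k, ∀ y₀ : P, y₀ ≠ 1 → (μ k : G → ℂ) y₀ =
        (δ : ℂ) * ∑ d : DP P, if cls d = k then ((d.1 y₀ : ℂˣ) : ℂ) else 0) ∧
      X.card = 3 ∧ oneI G ∈ X ∧ (∀ χ, χ ∈ X ↔ χ ∈ principalBlock M G ∧ χ ∉ Set.range μ) ∧
      (∀ χ ∈ X, a χ = 1 ∨ a χ = -1) ∧ (∀ χ ∈ X, ∀ y₀ : P, y₀ ≠ 1 → (χ : G → ℂ) y₀ = (a χ : ℂ)) ∧
      a (oneI G) = 1 ∧
      (∀ k g, ¬ p ∣ orderOf g → ∑ χ ∈ X, (a χ : ℂ) * (χ : G → ℂ) g = (δ : ℂ) * (μ k : G → ℂ) g) := by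
  haveI := isPrime_of_pModular hM
  obtain ⟨ε, b, t, z, μ, cls, hε, hte, ht, hnorm, hinj, hz, hcls, hsurj, hμB, hzB, hμ1, hval1, hval2, hrel⟩ :=
    h.main hM hm (by omega)
  -- a nonidentity element
  obtain ⟨y₁, hy₁⟩ : ∃ y₁ : P, y₁ ≠ 1 := by
    haveI : Nontrivial P := by
      rw [← Finite.one_lt_card_iff_nontrivial]
      omega
    exact exists_ne 1
  have hoB : oneI G ∈ principalBlock M G := by
    rw [Cfsg.Agent.Lib.Blocks.Third.principalBlock_eq_blockOf]
    exact mem_blockOf_self _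
  have hor : oneI G ∉ Set.range μ := by
    rintro ⟨k, hk⟩
    exact hμ1 k hk
  have hval : ∀ χ ∈ principalBlock M G, χ ∉ Set.range μ → ∀ y₀ : P, y₀ ≠ 1 →
      (χ : G → ℂ) y₀ = ((- z χ : ℤ) : ℂ) := by
    intro χ hχ hχ' y₀ hy₀
    rw [hval1 χ hχ (fun k hk => hχ' ⟨k, hk⟩) y₀ hy₀]
    push_cast
    rfl
  have hzne : ∀ χ ∈ principalBlock M G, χ ∉ Set.range μ → z χ ≠ 0 := by
    intro χ hχ hχ' h0
    have h1 := hval χ hχ hχ' y₁ hy₁
    rw [h0] at h1
    exact h.value_ne_zero hM hχ y₁.2 (by simpa using h1)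
  have hzo : z (oneI G) = -1 := by
    have h1 := hval _ hoB hor y₁ hy₁
    simp only [Cfsg.Agent.Lib.Blocks.Third.oneI_apply] at h1
    have h2 : (-z (oneI G) : ℤ) = 1 := by exact_mod_cast h1.symm
    omega
  set X : Finset (IrrCharacter G) := Finset.univ.filter
    (fun χ => χ ∈ principalBlock M G ∧ χ ∉ Set.range μ) with hX
  have hXmem : ∀ χ, χ ∈ X ↔ χ ∈ principalBlock M G ∧ χ ∉ Set.range μ := by
    intro χ
    simp [hX]
  have hzsum : ∑ j, z j ^ 2 = ∑ χ ∈ X, z χ ^ 2 := by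
    symm
    apply Finset.sum_subset (Finset.subset_univ _)
    intro j _ hj
    rw [hXmem] at hj
    by_cases hjB : j ∈ principalBlock M G
    · have : j ∈ Set.range μ := by
        by_contra h1
        exact hj ⟨hjB, h1⟩
      obtain ⟨k, rfl⟩ := this
      rw [hz, zero_pow two_ne_zero]
    · rw [hzB j hjB, zero_pow two_ne_zero]
  have hzsum2 : ∀ g : G, ∑ j, (z j : ℂ) * (j : G → ℂ) g = - ∑ χ ∈ X, ((- z χ : ℤ) : ℂ) * (χ : G → ℂ) g := by
    intro g
    rw [← Finset.sum_neg_distrib]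
    symm
    have h1 : ∀ χ ∈ X, - (((- z χ : ℤ) : ℂ) * (χ : G → ℂ) g) = (z χ : ℂ) * (χ : G → ℂ) g := by
      intro χ _
      push_cast
      ring
    rw [Finset.sum_congr rfl h1]
    apply Finset.sum_subset (Finset.subset_univ _)
    intro j _ hj
    rw [hXmem] at hj
    by_cases hjB : j ∈ principalBlock M G
    · have : j ∈ Set.range μ := by
        by_contra h1
        exact hj ⟨hjB, h1⟩
      obtain ⟨k, rfl⟩ := this
      rw [hz]
      simp
    · rw [hzB j hjB]
      simp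
  rw [hzsum] at hnorm
  have hS1 : 1 ≤ ∑ χ ∈ X, z χ ^ 2 := by
    have h1 : oneI G ∈ X := (hXmem _).mpr ⟨hoB, hor⟩
    have h2 := Finset.single_le_sum (f := fun χ => z χ ^ 2) (fun i _ => sq_nonneg (z i)) h1
    simp only [hzo] at h2
    norm_num at h2
    exact h2
  have hε2 : ε ^ 2 = 1 := by
    rcases hε with rfl | rfl <;> norm_num
  have hε0 : (ε : ℂ) ≠ 0 := by
    rcases hε with rfl | rfl <;> norm_num
  have hYreg : ∀ i k : Fin t, ∀ g : G, ¬ p ∣ orderOf g → (μ i : G → ℂ) g = (μ k : G → ℂ) g := by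
    intro i k g hg
    have h1 := hrel i g hg
    have h2 := hrel k g hg
    have h3 : (ε : ℂ) * ((μ i : G → ℂ) g - (μ k : G → ℂ) g) = 0 := by
      linear_combination h1 - h2
    exact sub_eq_zero.mp ((mul_eq_zero.mp h3).resolve_left hε0)
  have hrel' : ∀ i g, ¬ p ∣ orderOf g → - ∑ χ ∈ X, ((- z χ : ℤ) : ℂ) * (χ : G → ℂ) g +
      (b : ℂ) * ((t : ℂ) * (μ i : G → ℂ) g) + (ε : ℂ) * (μ i : G → ℂ) g = 0 := by
    intro i g hg
    have h1 := hrel i g hg
    rw [hzsum2, Finset.sum_congr rfl (fun k _ => hYreg k i g hg), Finset.sum_const, Finset.card_univ,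
      Fintype.card_fin, nsmul_eq_mul] at h1
    exact h1
  -- `B' = ε b`
  obtain ⟨B', hB'⟩ : ∃ B' : ℤ, b = ε * B' := ⟨ε * b, by rw [← mul_assoc, ← sq, hε2, one_mul]⟩
  have hB'sq : b ^ 2 = B' ^ 2 := by
    rw [hB', mul_pow, hε2, one_mul]
  have hεb : ε * b = B' := by
    rw [hB', ← mul_assoc, ← sq, hε2, one_mul]
  have ht' : (2 : ℤ) ≤ t := by exact_mod_cast ht
  have hnorm' : ∑ χ ∈ X, z χ ^ 2 + 2 * B' + t * B' ^ 2 = 3 := by
    have h3 : ((3 : ℕ) : ℤ) = 3 := rfl
    rw [h3] at hnorm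
    rw [← hnorm, ← hB'sq, ← hεb]
    ring
  -- the values of `B'`
  have hB'01 : B' = 0 ∨ B' = -1 := by
    by_contra hcon
    push Not at hcon
    have h1 : 1 ≤ B' ∨ B' ≤ -2 := by omega
    rcases h1 with h1 | h1
    · nlinarith [sq_nonneg B']
    · nlinarith [sq_nonneg B', sq_nonneg (B' + 2)]
  have hcases : (B' = 0 ∧ ∑ χ ∈ X, z χ ^ 2 = 3) ∨ (B' = -1 ∧ t = 2 ∧ ∑ χ ∈ X, z χ ^ 2 = 3) := by
    rcases hB'01 with hB0 | hB1
    · left
      refine ⟨hB0, ?_⟩
      rw [hB0] at hnorm'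
      linarith
    · right
      refine ⟨hB1, ?_⟩
      rw [hB1] at hnorm'
      have hS : ∑ χ ∈ X, z χ ^ 2 = 5 - t := by linarith
      have ht5 : (t : ℤ) ≤ 4 := by linarith
      have hP : Nat.card P = 3 * t + 1 := by omega
      have ht6 : t ≤ 4 := by exact_mod_cast ht5
      have ht2 : t = 2 ∨ t = 3 ∨ t = 4 := by omega
      rcases ht2 with rfl | rfl | rfl
      · exact ⟨rfl, by rw [hS]; norm_num⟩
      · exact absurd (by rw [hP]) (card_ne_ten h)
      · exfalso
        -- the degree equation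
        have hS1' : ∑ χ ∈ X, z χ ^ 2 = 1 := by rw [hS]; norm_num
        have hXone : X = {oneI G} := by
          ext χ
          simp only [Finset.mem_singleton]
          constructor
          · intro hχ
            by_contra hne
            have h1 : oneI G ∈ X := (hXmem _).mpr ⟨hoB, hor⟩
            have h2 := Finset.add_le_sum (f := fun χ => z χ ^ 2) (fun i _ => sq_nonneg (z i)) h1 hχ (Ne.symm hne)
            have hχ' := (hXmem _).mp hχ
            have h3 : z χ ^ 2 ≠ 0 := pow_ne_zero 2 (hzne χ hχ'.1 hχ'.2)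
            have h4 := sq_nonneg (z χ)
            simp only [hzo, hS1'] at h2
            have h8 : z χ ^ 2 ≤ 0 := by linarith
            omega
          · rintro rfl
            exact (hXmem _).mpr ⟨hoB, hor⟩
        have h1 := hrel' ⟨0, by norm_num⟩ 1 (by
          rw [orderOf_one]
          exact hp.out.one_lt.ne' ∘ Nat.dvd_one.mp)
        rw [hXone, Finset.sum_singleton, hzo, hB', hB1] at h1
        obtain ⟨w, hw⟩ := Cfsg.Agent.Lib.Char.Basic.exists_deg_of_isCharacter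
          (Cfsg.Agent.Lib.Char.Basic.isCharacter_of_isIrrCharacter (μ ⟨0, by norm_num⟩).2)
        simp only [Cfsg.Agent.Lib.Blocks.Third.oneI_apply] at h1
        rw [hw] at h1
        push_cast at h1
        have h2 : (1 : ℤ) + 3 * ε * w = 0 := by
          have h3 : ((1 + 3 * ε * w : ℤ) : ℂ) = 0 := by
            push_cast
            linear_combination -h1
          exact_mod_cast h3
        have h3 : (3 : ℤ) ∣ 1 := ⟨-(ε * w), by linarith⟩
        norm_num at h3
  have hSX : ∑ χ ∈ X, z χ ^ 2 = 3 := by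
    rcases hcases with h1 | h1
    · exact h1.2
    · exact h1.2.2
  have hz1 : ∀ χ ∈ X, z χ = 1 ∨ z χ = -1 := by
    intro χ hχ
    have hχ' := (hXmem _).mp hχ
    have h0 := hzne χ hχ'.1 hχ'.2
    have h2 := Finset.single_le_sum (f := fun χ => z χ ^ 2) (fun i _ => sq_nonneg (z i)) hχ
    rw [hSX] at h2
    have h3 : z χ ≤ 1 := by
      by_contra hc
      push Not at hc
      have : 2 ≤ z χ := hc
      nlinarith
    have h4 : -1 ≤ z χ := by
      by_contra hc
      push Not at hc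
      have : z χ ≤ -2 := by omega
      nlinarith
    omega
  have hXcard : X.card = 3 := by
    have h1 : ∑ χ ∈ X, z χ ^ 2 = ∑ χ ∈ X, (1 : ℤ) := by
      refine Finset.sum_congr rfl fun χ hχ => ?_
      rcases hz1 χ hχ with h2 | h2 <;> rw [h2] <;> norm_num
    rw [hSX] at h1
    simp only [Finset.sum_const, nsmul_eq_mul, mul_one] at h1
    exact_mod_cast h1.symm
  have ha1 : ∀ χ ∈ X, - z χ = 1 ∨ - z χ = -1 := by
    intro χ hχ
    rcases hz1 χ hχ with h2 | h2
    · right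
      omega
    · left
      omega
  have hoX : oneI G ∈ X := (hXmem _).mpr ⟨hoB, hor⟩
  have hXval : ∀ χ ∈ X, ∀ y₀ : P, y₀ ≠ 1 → (χ : G → ℂ) y₀ = ((- z χ : ℤ) : ℂ) := by
    intro χ hχ y₀ hy₀
    have hχ' := (hXmem _).mp hχ
    exact hval χ hχ'.1 hχ'.2 y₀ hy₀
  rcases hcases with ⟨hB0, -⟩ | ⟨hB1, ht2, -⟩
  · -- `b = 0`
    have hb : b = 0 := by rw [hB', hB0, mul_zero]
    refine ⟨ε, t, fun χ => - z χ, μ, cls, X, hε, hte, ht, hinj, hcls, hsurj, hμB, hμ1, ?_, hXcard, hoX,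
      hXmem, ha1, hXval, by simp [hzo], ?_⟩
    · intro k y₀ hy₀
      rw [hval2 k y₀ hy₀, hb]
      push_cast
      ring
    · intro k g hg
      have h1 := hrel' k g hg
      rw [hb] at h1
      push_cast at h1 ⊢
      linear_combination -h1
  · -- the exceptional case `t = 2`
    subst ht2
    have hb : b = -ε := by rw [hB', hB1]; ring
    have hrev : Function.Injective (Fin.rev : Fin 2 → Fin 2) := Fin.rev_injective
    have hfsum : ∀ y₀ : P, y₀ ≠ 1 → ∀ k : Fin 2,
        (∑ d : DP P, if cls d = k then ((d.1 y₀ : ℂˣ) : ℂ) else 0) +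
        (∑ d : DP P, if cls d = Fin.rev k then ((d.1 y₀ : ℂˣ) : ℂ) else 0) = -1 := by
      intro y₀ hy₀ k
      have h1 := h.sum_DP y₀
      rw [if_neg hy₀, zero_sub] at h1
      rw [← h1, ← Finset.sum_add_distrib]
      refine Finset.sum_congr rfl fun d _ => ?_
      by_cases hd : cls d = k
      · have key : ∀ k : Fin 2, ¬ k = Fin.rev k := by decide
        simp [hd, key k]
      · have key : ∀ c k : Fin 2, c ≠ k → c = Fin.rev k := by decide
        have key2 : ∀ k : Fin 2, ¬ Fin.rev k = k := by decide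
        have := key _ _ hd
        simp [this, key2 k]
    refine ⟨-ε, 2, fun χ => - z χ, μ ∘ Fin.rev, cls, X, ?_, hte, ht, hinj.comp hrev, hcls, hsurj,
      fun k => hμB _, fun k => hμ1 _, ?_, hXcard, hoX, ?_, ha1, hXval, by simp [hzo], ?_⟩
    · rcases hε with h1 | h1
      · right
        omega
      · left
        omega
    · intro k y₀ hy₀
      simp only [Function.comp_apply]
      rw [hval2 _ y₀ hy₀, hb]
      have h1 := hfsum y₀ hy₀ k
      push_cast
      linear_combination (ε : ℂ) * h1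
    · intro χ
      rw [hXmem]
      constructor
      · rintro ⟨h1, h2⟩
        refine ⟨h1, ?_⟩
        rintro ⟨k, rfl⟩
        exact h2 ⟨_, rfl⟩
      · rintro ⟨h1, h2⟩
        refine ⟨h1, ?_⟩
        rintro ⟨k, rfl⟩
        apply h2
        refine ⟨Fin.rev k, ?_⟩
        simp
    · intro k g hg
      simp only [Function.comp_apply]
      have h1 := hrel' (Fin.rev k) g hg
      rw [hb] at h1
      push_cast at h1 ⊢
      linear_combination -h1

end Main

end Cfsg.Agent.Lib.ModRep.AbFrob
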