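import Mathlib
import Cfsg.Agent.Lib.ModRep.KL2
import Cfsg.Agent.Lib.BlockP.PSolvHeight
import Cfsg.Agent.S4492

/-!
# Blocks with `k(B) ≤ l(B) + 1` in `p`-solvable groups
-/

set_option autoImplicit false
set_option linter.style.haveILetI false
set_option linter.unusedSectionVars false

namespace Cfsg.Agent.Lib.ModRep.KL1

open Cfsg
open Cfsg.Agent.Lib.Blocks.Local Cfsg.Agent.Lib.Blocks.Central Cfsg.Agent.Lib.Blocks.Induced
open Cfsg.Agent.Lib.Blocks.Defect2
open Cfsg.Agent.Lib.Core.Basic Cfsg.Agent.Lib.Core.Series Cfsg.Agent.Lib.Core.PSolvable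
open Cfsg.Agent.Lib.Char.Basic Cfsg.Agent.Lib.Char.Ortho Cfsg.Agent.Lib.Char.Complete
open Cfsg.Agent.Lib.Char.Conj Cfsg.Agent.Lib.Char.Clifford Cfsg.Agent.Lib.Char.CliffordCorr
open Cfsg.Agent.Lib.Char.Induced

universe u

section GT

variable {G : Type u} [Group G] [Finite G] {p : ℕ} [hpf : Fact p.Prime]

theorem pow_eq_one_of_conj (P : Sylow p G)
    (hconj : ∀ x ∈ (P : Subgroup G), ∀ y ∈ (P : Subgroup G), x ≠ 1 → y ≠ 1 → IsConj x y) :
    ∀ a ∈ (P : Subgroup G), a ^ p = 1 := by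
  have hp : p.Prime := hpf.out
  have hPp : IsPGroup p (P : Subgroup G) := P.isPGroup'
  intro a ha
  by_cases ha1 : a = 1
  · rw [ha1, one_pow]
  have hdvd : p ∣ Nat.card (P : Subgroup G) := by
    haveI : Nontrivial (P : Subgroup G) := ⟨⟨⟨a, ha⟩, 1, fun h => ha1 (congrArg Subtype.val h)⟩⟩
    obtain ⟨k, hk⟩ := IsPGroup.iff_card.mp hPp
    rw [hk]
    have : k ≠ 0 := by
      rintro rfl
      have := Finite.one_lt_card (α := (P : Subgroup G))
      rw [hk, pow_zero] at this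
      omega
    exact dvd_pow_self p this
  obtain ⟨b, hb⟩ := exists_prime_orderOf_dvd_card' p hdvd
  have hb' : orderOf (b : G) = p := by rw [← Subgroup.orderOf_coe] at hb; exact hb
  have hb1 : (b : G) ≠ 1 := by
    intro h
    rw [h, orderOf_one] at hb'
    exact hp.one_lt.ne hb'
  obtain ⟨g, hg⟩ := isConj_iff.mp (hconj _ b.2 _ ha hb1 ha1)
  have hb3 : (b : G) ^ p = 1 := by
    have h0 := pow_orderOf_eq_one (b : G)
    rwa [hb'] at h0
  rw [← hg, conj_pow, hb3]
  simp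

/-- A `p`-solvable group: one class of nonidentity elements of the Sylow subgroup. -/
theorem isElementaryAbelian_of_conj_psolvable (hsolv : IsPSolvable p G) (P : Sylow p G)
    (hconj : ∀ x ∈ (P : Subgroup G), ∀ y ∈ (P : Subgroup G), x ≠ 1 → y ≠ 1 → IsConj x y) :
    IsElementaryAbelian p (P : Subgroup G) := by
  classical
  have hp : p.Prime := hpf.out
  have hexp := pow_eq_one_of_conj P hconj
  refine ⟨?_, hexp⟩
  have hPp : IsPGroup p (P : Subgroup G) := P.isPGroup'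
  by_cases hbot : Nontrivial (P : Subgroup G)
  swap
  · rw [not_nontrivial_iff_subsingleton] at hbot
    exact ⟨⟨fun a b => Subsingleton.elim _ _⟩⟩
  haveI hKn : (pPrimeCore p G).Normal := pPrimeCore_normal p G
  have hinf : (P : Subgroup G) ⊓ pPrimeCore p G = ⊥ :=
    inf_eq_bot_of_isPGroup_of_coprime hPp pPrimeCore_coprime
  let π : G →* G ⧸ pPrimeCore p G := QuotientGroup.mk' (pPrimeCore p G)
  have hπ : Function.Surjective π := QuotientGroup.mk_surjective
  have hπ1 : ∀ x, π x = 1 → x ∈ pPrimeCore p G := fun x h => (QuotientGroup.eq_one_iff x).mp h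
  obtain ⟨⟨a₀, ha₀⟩, ha₀1⟩ := exists_ne (1 : (P : Subgroup G))
  have ha₀1' : a₀ ≠ 1 := fun h => ha₀1 (Subtype.ext h)
  have ha₀K : a₀ ∉ pPrimeCore p G := by
    intro h
    have : a₀ ∈ (P : Subgroup G) ⊓ pPrimeCore p G := ⟨ha₀, h⟩
    rw [hinf] at this
    exact ha₀1' this
  haveI : Nontrivial (G ⧸ pPrimeCore p G) := by
    refine ⟨⟨π a₀, 1, fun h => ha₀K ?_⟩⟩
    exact hπ1 a₀ h
  have hsolvb : IsPSolvable p (G ⧸ pPrimeCore p G) := isPSolvable_of_surjective π hπ hsolv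
  -- the `p`-core of the quotient
  have hcore : pCore p (G ⧸ pPrimeCore p G) ≠ ⊥ := by
    obtain ⟨N, hN, hN1, hN2⟩ := isPSolvable_exists_normal hsolvb
    rcases hN2 with ⟨m, hm⟩ | hN2
    · intro h0
      have hle : N ≤ pCore p (G ⧸ pPrimeCore p G) := le_pCore hN (IsPGroup.iff_card.mpr ⟨m, hm⟩)
      rw [h0] at hle
      exact hN1 (le_bot_iff.mp hle)
    · intro _
      have hle : N ≤ pPrimeCore p (G ⧸ pPrimeCore p G) := le_pPrimeCore hN hN2
      rw [pPrimeCore_quotient_eq_bot] at hle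
      exact hN1 (le_bot_iff.mp hle)
  let Pb : Sylow p (G ⧸ pPrimeCore p G) := Sylow.mapSurjective hπ P
  have hPb : (Pb : Subgroup (G ⧸ pPrimeCore p G)) = (P : Subgroup G).map π := rfl
  have hcoreP : pCore p (G ⧸ pPrimeCore p G) ≤ (Pb : Subgroup (G ⧸ pPrimeCore p G)) := pCore_le_sylow Pb
  -- an element of `O_{p',p}(G)` in `P`
  obtain ⟨⟨u, hu⟩, hu1⟩ := Subgroup.ne_bot_iff_exists_ne_one.mp hcore
  have hu1' : u ≠ 1 := fun h => hu1 (Subtype.ext h)
  obtain ⟨x₀, hx₀P, hx₀⟩ : ∃ x₀ ∈ (P : Subgroup G), π x₀ = u := by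
    have := hcoreP hu
    rw [hPb] at this
    exact this
  have hx₀1 : x₀ ≠ 1 := by
    rintro rfl
    rw [map_one] at hx₀
    exact hu1' hx₀.symm
  have hcn : (pCore p (G ⧸ pPrimeCore p G)).Normal := pCore_normal p _
  have hle : (Pb : Subgroup (G ⧸ pPrimeCore p G)) ≤ pCore p (G ⧸ pPrimeCore p G) := by
    rw [hPb]
    rintro _ ⟨d, hd, rfl⟩
    by_cases hd1 : d = 1
    · rw [hd1, map_one]
      exact Subgroup.one_mem _
    obtain ⟨g, rfl⟩ := isConj_iff.mp (hconj x₀ hx₀P d hd hx₀1 hd1)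
    rw [map_mul, map_mul, map_inv, hx₀]
    exact hcn.conj_mem _ hu _
  have hPbeq : (Pb : Subgroup (G ⧸ pPrimeCore p G)) = pCore p (G ⧸ pPrimeCore p G) :=
    le_antisymm hle hcoreP
  -- the centre of `P`
  haveI := hPp.center_nontrivial
  obtain ⟨⟨z₀, hz₀⟩, hz₀1⟩ := exists_ne (1 : Subgroup.center (P : Subgroup G))
  set z : G := (z₀ : G) with hz
  have hzP : z ∈ (P : Subgroup G) := z₀.2
  have hz1 : z ≠ 1 := by
    intro h
    apply hz₀1
    apply Subtype.ext
    apply Subtype.ext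
    exact h
  have hzc : ∀ a ∈ (P : Subgroup G), a * z = z * a := by
    intro a ha
    have h1 := (Subgroup.mem_center_iff.mp hz₀) ⟨a, ha⟩
    exact congrArg Subtype.val h1
  have hcomm : ∀ a ∈ (P : Subgroup G), ∀ b ∈ (P : Subgroup G), a * b = b * a := by
    intro a ha b hb
    by_cases ha1 : a = 1
    · rw [ha1, one_mul, mul_one]
    obtain ⟨g, hg⟩ := isConj_iff.mp (hconj z hzP a ha hz1 ha1)
    have hb' : π (g⁻¹ * b * g) ∈ (Pb : Subgroup (G ⧸ pPrimeCore p G)) := by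
      rw [hPbeq]
      have h1 : π b ∈ pCore p (G ⧸ pPrimeCore p G) := hle (by rw [hPb]; exact ⟨b, hb, rfl⟩)
      have h2 := hcn.conj_mem _ h1 (π g)⁻¹
      simpa [map_mul, map_inv] using h2
    obtain ⟨b₁, hb₁, he⟩ : ∃ b₁ ∈ (P : Subgroup G), π b₁ = π (g⁻¹ * b * g) := by
      rw [hPb] at hb'
      exact hb'
    set c := z * (g⁻¹ * b * g) * z⁻¹ * (g⁻¹ * b * g)⁻¹ with hc
    have hcK : c ∈ pPrimeCore p G := by
      apply hπ1
      rw [hc, map_mul, map_mul, map_mul, map_inv, map_inv, ← he, ← map_inv, ← map_inv, ← map_mul,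
        ← map_mul, ← map_mul]
      have h3 := hzc b₁ hb₁
      have h4 : z * b₁ * z⁻¹ * b₁⁻¹ = 1 := by
        rw [← h3]
        group
      rw [h4, map_one]
    have hmem : a * b * a⁻¹ * b⁻¹ ∈ pPrimeCore p G := by
      have e : a * b * a⁻¹ * b⁻¹ = g * c * g⁻¹ := by
        rw [← hg, hc]
        group
      rw [e]
      exact hKn.conj_mem _ hcK g
    have hmemP : a * b * a⁻¹ * b⁻¹ ∈ (P : Subgroup G) :=
      Subgroup.mul_mem _ (Subgroup.mul_mem _ (Subgroup.mul_mem _ ha hb) (Subgroup.inv_mem _ ha))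
        (Subgroup.inv_mem _ hb)
    have h5 : a * b * a⁻¹ * b⁻¹ ∈ (P : Subgroup G) ⊓ pPrimeCore p G := ⟨hmemP, hmem⟩
    rw [hinf, Subgroup.mem_bot] at h5
    have h6 : a * b * a⁻¹ = b := mul_inv_eq_one.mp h5
    exact mul_inv_eq_iff_eq_mul.mp h6
  exact ⟨⟨fun a b => Subtype.ext (hcomm a a.2 b b.2)⟩⟩

theorem isElementaryAbelian_map {H : Type*} [Group H] {A : Subgroup H} (h : IsElementaryAbelian p A)
    (f : H →* G) : IsElementaryAbelian p (A.map f) := by
  obtain ⟨h1, h2⟩ := h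
  haveI := h1
  refine ⟨⟨⟨?_⟩⟩, ?_⟩
  · rintro ⟨_, a, ha, rfl⟩ ⟨_, b, hb, rfl⟩
    apply Subtype.ext
    have h3 : (⟨a, ha⟩ : A) * ⟨b, hb⟩ = ⟨b, hb⟩ * ⟨a, ha⟩ := mul_comm' _ _
    have h4 := congrArg Subtype.val h3
    simp only [Subgroup.coe_mul, MulMemClass.mk_mul_mk] at h4 ⊢
    rw [← map_mul, ← map_mul, h4]
  · rintro _ ⟨a, ha, rfl⟩
    rw [← map_pow, h2 a ha, map_one]

end GT

section Ind

variable {G : Type u} [Group G] [Fintype G] {M : Ideal AlgInt} {p : ℕ} [hpf : Fact p.Prime]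

/-- Induction as a linear map. -/
noncomputable def indL (T : Subgroup G) : (T → ℂ) →ₗ[ℂ] (G → ℂ) where
  toFun f := indFun T f
  map_add' f g := indFun_add T f g
  map_smul' c f := by
    rw [RingHom.id_apply]
    exact indFun_smul T c f

theorem part_indFun (T : Subgroup G) (ψ : T → ℂ) :
    pRegularPart p (indFun T ψ) = indFun T (pRegularPart p ψ) := by
  classical
  funext g
  rw [Cfsg.Agent.Lib.BlockH.Regular.pRegularPart_apply]
  by_cases hg : IsPRegular p g
  · rw [if_pos hg, indFun_apply, indFun_apply]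
    congr 1
    refine Fintype.sum_congr _ _ fun x => ?_
    by_cases hx : x⁻¹ * g * x ∈ T
    · rw [extendByZero_of_mem T _ hx, extendByZero_of_mem T _ hx,
        Cfsg.Agent.Lib.BlockH.Regular.pRegularPart_apply, if_pos]
      change ¬ p ∣ orderOf (⟨x⁻¹ * g * x, hx⟩ : T)
      rw [Subgroup.orderOf_mk]
      have := orderOf_conj'' x⁻¹ g
      rw [inv_inv] at this
      rwa [this]
    · rw [extendByZero_of_not_mem T _ hx, extendByZero_of_not_mem T _ hx]
  · rw [if_neg hg, indFun_apply]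
    symm
    apply mul_eq_zero_of_right
    refine Finset.sum_eq_zero fun x _ => ?_
    by_cases hx : x⁻¹ * g * x ∈ T
    · rw [extendByZero_of_mem T _ hx, Cfsg.Agent.Lib.BlockH.Regular.pRegularPart_apply, if_neg]
      intro h
      apply hg
      change ¬ p ∣ orderOf (⟨x⁻¹ * g * x, hx⟩ : T) at h
      rw [Subgroup.orderOf_mk] at h
      have := orderOf_conj'' x⁻¹ g
      rw [inv_inv] at this
      rwa [this] at h
    · rw [extendByZero_of_not_mem T _ hx]

theorem blockRank_ind_le {T : Subgroup G} {B' : Set (IrrCharacter T)} {B : Set (IrrCharacter G)}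
    (h : ∀ χ : IrrCharacter G, χ ∈ B → ∃ ψ ∈ B', (χ : G → ℂ) = indFun T (ψ : T → ℂ)) :
    blockRank p B ≤ blockRank p B' := by
  classical
  rw [blockRank, blockRank]
  set S' := Submodule.span ℂ ((fun χ : IrrCharacter T => pRegularPart p (χ : T → ℂ)) '' B') with hS'
  have hle : Submodule.span ℂ ((fun χ : IrrCharacter G => pRegularPart p (χ : G → ℂ)) '' B) ≤
      S'.map (indL T) := by
    rw [Submodule.span_le]
    rintro _ ⟨χ, hχ, rfl⟩
    obtain ⟨ψ, hψ, hχψ⟩ := h χ hχ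
    refine ⟨pRegularPart p (ψ : T → ℂ), Submodule.subset_span ⟨ψ, hψ, rfl⟩, ?_⟩
    change indFun T (pRegularPart p (ψ : T → ℂ)) = pRegularPart p (χ : G → ℂ)
    rw [hχψ, part_indFun]
  exact (Submodule.finrank_mono hle).trans (Submodule.finrank_map_le _ _)

open Cfsg.Agent.Lib.Blocks.FR Cfsg.Agent.Lib.Blocks.FR2 in
theorem fr_card_rank {N : Subgroup G} (hN : N.Normal) {T : Subgroup G} {b : Set (IrrCharacter N)}
    [Fintype N] [Fintype T]
    (hM : IsPModular p M) (hb : IsPBlock M b) (hNT : N ≤ T) (hS : IsStab hN b T)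
    {B' : Set (IrrCharacter T)} (hB' : IsPBlock M B')
    (hcov : ∃ ψ ∈ B', ∃ θ ∈ b, classInner (res hNT (ψ : T → ℂ)) (θ : N → ℂ) ≠ 0)
    {B : Set (IrrCharacter G)} (hind : IsInducedBlock M T B' B) :
    Nat.card B' ≤ Nat.card B ∧ blockRank p B ≤ blockRank p B' := by
  classical
  haveI := Cfsg.Agent.Lib.Blocks.Local.isPrime_of_pModular hM
  haveI := Cfsg.Agent.Lib.Char.Ortho.finite_irrCharacter (G := G)
  letI := Fintype.ofFinite (Cfsg.IrrCharacter G)
  haveI := Cfsg.Agent.Lib.Char.Ortho.finite_irrCharacter (G := N)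
  letI := Fintype.ofFinite (Cfsg.IrrCharacter N)
  haveI := Cfsg.Agent.Lib.Char.Ortho.finite_irrCharacter (G := T)
  letI := Fintype.ofFinite (Cfsg.IrrCharacter T)
  letI : Fintype (G ⧸ T) := Fintype.ofFinite _
  obtain ⟨B₂, hind₂, -, hirr, hiff⟩ := fr_part_one hb hNT hS hB' hcov
  have hB₂ : B = B₂ := Cfsg.Agent.Lib.BlockP.PSolvHeight.induced_unique hM hB' hind hind₂
  subst hB₂
  refine ⟨?_, blockRank_ind_le fun χ hχ => (hiff χ).mp hχ⟩
  obtain ⟨ψ₀, hψ₀B, hψ₀cov⟩ := hcov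
  have hψ₀ := (omega_eT_eq_one_iff hNT hS ψ₀).mpr hψ₀cov
  have hEE := eT_mul_self hNT hS
  have hEl := eT_mem_localCenter (M := M) hb hS
  have horth := horth_eT hb hNT hS
  have hω : ∀ ψ ∈ B', omegaHom ψ (eT hN b hS) = 1 := by
    intro ψ hψ
    have h1 : ψ ∈ blockOf M (ψ₀ : T → ℂ) := by
      rw [← isPBlock_eq_blockOf hB' hψ₀B]
      exact hψ
    exact I_of_sameBlock hEl hEE h1 hψ₀
  let f : B' → B := fun ψ => ⟨⟨indFun T (ψ.1 : T → ℂ), hirr ψ.1 ψ.2⟩,
    (hiff _).mpr ⟨ψ.1, ψ.2, rfl⟩⟩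
  apply Nat.card_le_card_of_injective f
  intro ψ ψ' h
  have h1 : indFun T (ψ.1 : T → ℂ) = indFun T (ψ'.1 : T → ℂ) :=
    congrArg (fun q : B => ((q : IrrCharacter G) : G → ℂ)) h
  have h2 := indFun_injective horth hEE (hω ψ.1 ψ.2) (hω ψ'.1 ψ'.2) h1
  exact (Subtype.ext h2).symm

end Ind

section PSolv

variable {M : Ideal AlgInt} {p : ℕ} [hpf : Fact p.Prime]

/-- **Theorem**: `p`-solvable groups. -/
theorem psolv_aux (hM : IsPModular p M) : ∀ (n : ℕ) (G : Type u) [Group G] [Fintype G],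
    Nat.card G = n → IsPSolvable p G →
    ∀ (B : Set (IrrCharacter G)), IsPBlock M B → ∀ D : Subgroup G, IsDefectGroup p M B D →
    Nat.card B ≤ blockRank p B + 1 → IsElementaryAbelian p D := by
  intro n
  induction n using Nat.strong_induction_on with
  | _ n ih =>
  intro G _ _ hn hsolv B hB D hD hk
  classical
  haveI hMp := Cfsg.Agent.Lib.Blocks.Local.isPrime_of_pModular hM
  haveI := Cfsg.Agent.Lib.Char.Ortho.finite_irrCharacter (G := G)
  letI := Fintype.ofFinite (IrrCharacter G)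
  have hp := hpf.out
  haveI hNn : (pPrimeCore p G).Normal := pPrimeCore_normal p G
  letI : Fintype (pPrimeCore p G) := Fintype.ofFinite _
  have hc : (Nat.card (pPrimeCore p G)).Coprime p := pPrimeCore_coprime
  obtain ⟨χ, hχ⟩ := Cfsg.Agent.Lib.Blocks.Central.isPBlock_nonempty hB
  obtain ⟨θ, hθ⟩ := Cfsg.Agent.Lib.BlockT.NormalP.exists_constituent (N := pPrimeCore p G) χ
  by_cases hinv : ∀ g : G, conjOn hNn g (θ : pPrimeCore p G → ℂ) = θ
  · -- the invariant case
    obtain ⟨B₁, hB₁, hB₁iff, -, hB₁D⟩ := Cfsg.Agent.S4492.result p M hM hsolv (pPrimeCore p G) rfl θ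
      (fun g n => congrFun (hinv g) n)
    have hBB : B = B₁ := Cfsg.Agent.Lib.Blocks.Main.isPBlock_mem_unique hB hB₁ hχ ((hB₁iff χ).mpr hθ)
    subst hBB
    obtain ⟨P, rfl⟩ := hB₁D D hD
    exact isElementaryAbelian_of_conj_psolvable hsolv P fun x hx y hy hx1 hy1 =>
      all_conj_of_defect hM hB hD hk hx hy hx1 hy1
  · let T : Subgroup G := inertia hNn (θ : pPrimeCore p G → ℂ)
    have hTne : T ≠ ⊤ := by
      intro h
      apply hinv
      intro g
      have : g ∈ T := by rw [h]; trivial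
      exact this
    letI : Fintype T := Fintype.ofFinite _
    haveI := Cfsg.Agent.Lib.Char.Ortho.finite_irrCharacter (G := pPrimeCore p G)
    letI := Fintype.ofFinite (IrrCharacter (pPrimeCore p G))
    have hsingle : blockOf M (θ : pPrimeCore p G → ℂ) = {θ} := by
      apply (Cfsg.Agent.Lib.Blocks.Inducing.blockOf_eq_singleton_iff hM θ).mp
      intro h
      have h1 : Nat.card (pPrimeCore p G) / charDegree (θ : pPrimeCore p G → ℂ) ∣
          Nat.card (pPrimeCore p G) := Nat.div_dvd_of_dvd (Cfsg.Agent.Lib.Char.Degree.charDegree_dvd_card θ.2)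
      have h2 := Nat.Coprime.coprime_dvd_left (h.trans h1) hc
      exact hp.one_lt.ne' ((Nat.coprime_self p).mp h2)
    have hb : IsPBlock M ({θ} : Set (IrrCharacter (pPrimeCore p G))) := ⟨θ, hsingle.symm⟩
    have hT : ∀ g : G, g ∈ T ↔ ∀ θ₀ ∈ ({θ} : Set (IrrCharacter (pPrimeCore p G))),
        ∀ θ' : IrrCharacter (pPrimeCore p G),
        (∀ n : pPrimeCore p G, (θ' : pPrimeCore p G → ℂ) n =
          (θ₀ : pPrimeCore p G → ℂ) ⟨g * n * g⁻¹, hNn.conj_mem n n.2 g⟩) →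
        θ' ∈ ({θ} : Set (IrrCharacter (pPrimeCore p G))) := by
      intro g
      constructor
      · rintro hg θ₀ rfl θ' h
        refine Set.mem_singleton_iff.mpr (Subtype.ext (funext fun n => ?_))
        rw [h n]
        exact congrFun hg n
      · intro h
        have h1 := h θ rfl ⟨conjOn hNn g (θ : pPrimeCore p G → ℂ),
          isIrrCharacter_conjOn hNn g θ.2⟩ (fun n => rfl)
        have h2 := Set.mem_singleton_iff.mp h1
        exact congrArg Subtype.val h2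
    have hNT : pPrimeCore p G ≤ T := le_inertia hNn (isClassFunction_of_isIrrCharacter θ.2)
    obtain ⟨h1, -, h3⟩ := Cfsg.Agent.S4435.result p M hM (pPrimeCore p G) {θ} hb T hT hNT
    obtain ⟨B', hB', hcov', hind⟩ := h3 B hB ⟨χ, hχ, θ, rfl, hθ⟩
    obtain ⟨hdefect, -⟩ := Cfsg.Agent.S4436.result p M hM (pPrimeCore p G) {θ} hb T hT hNT
      B' hB' hcov' B hind
    have hS := Cfsg.Agent.Lib.Blocks.FR2.isStab_of_forall hNn hT
    obtain ⟨hcard, hrank⟩ := fr_card_rank hNn hM hb hNT hS hB' hcov' hind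
    obtain ⟨D', hD'⟩ := Cfsg.Agent.Lib.Blocks.Defect2.exists_isDefectGroup (p := p) hB'
    have hlt : Nat.card T < n := by
      rw [← hn]
      have h4 := T.card_mul_index
      have h5 : T.index ≠ 1 := fun h => hTne (Subgroup.index_eq_one.mp h)
      have h6 : T.index ≠ 0 := Subgroup.index_ne_zero_of_finite
      have h7 : 2 ≤ T.index := by omega
      have h8 : 0 < Nat.card T := Nat.card_pos
      rw [← h4]
      nlinarith
    have hih := ih (Nat.card T) hlt T rfl (isPSolvable_subgroup T hsolv) B' hB' D' hD' (by omega)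
    have hdef := hdefect D' hD'
    obtain ⟨x, rfl⟩ := Cfsg.Agent.Lib.Blocks.Defect2.isDefectGroup_exists_conj_eq hM hB hdef hD
    exact isElementaryAbelian_map (isElementaryAbelian_map hih T.subtype) _

end PSolv

end Cfsg.Agent.Lib.ModRep.KL1
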