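import Cfsg.Agent.Lib.ModRep.ThIdem

/-!
# Degrees of the members of the block induced from a block of `C_G(P)`

`P` of order `p`, `p ^ 2 ∤ |G|`, `θ ∈ Irr(C_G(P))` with `P` in the kernel, `B` the block induced by the block
of `θ`.  The members of `B` have degree prime to `p`, and `χ(1) ≡ [N:T] θ(1) (Σ_d ⟨Θ_d, χ⟩)` modulo `p`.
-/

set_option autoImplicit false
set_option linter.style.haveILetI false
set_option linter.unusedSectionVars false

namespace Cfsg.Agent.Lib.ModRep.ThDeg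

open Cfsg MonoidAlgebra
open Cfsg.Agent.Lib.Blocks.Local Cfsg.Agent.Lib.Blocks.Central Cfsg.Agent.Lib.Blocks.General
open Cfsg.Agent.Lib.Blocks.Induced
open Cfsg.Agent.Lib.Char.Induced Cfsg.Agent.Lib.Char.Ortho Cfsg.Agent.Lib.Char.Linear
open Cfsg.Agent.Lib.Char.Basic Cfsg.Agent.Lib.Char.GenLattice
open Cfsg.Agent.Lib.ExcP.Gram Cfsg.Agent.Lib.ExcP.Inst Cfsg.Agent.Lib.ExcP.Dual
open Cfsg.Agent.Lib.ModRep.Prime Cfsg.Agent.Lib.ModRep.ThGram Cfsg.Agent.Lib.ModRep.ThIdem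
open scoped ComplexConjugate

universe u

variable {G : Type u} [Group G] [Fintype G] {p : ℕ} [hp : Fact p.Prime] {P : Subgroup G}
  [Fintype (Cn P)] {M : Ideal AlgInt}

/-- Members of the induced block have degree prime to `p`. -/
theorem not_dvd_degree_of_mem [Fintype (IrrCharacter G)] (hM : IsPModular p M) (hP : Nat.card P = p)
    (hp2 : ¬ p ^ 2 ∣ Nat.card G) (θ : IrrCharacter (Cn P))
    (hθP : ∀ x : Cn P, (x : G) ∈ P → (θ : Cn P → ℂ) x = (θ : Cn P → ℂ) 1)
    {B : Set (IrrCharacter G)} (hind : IsInducedBlock M (Cn P) (blockOf M (θ : Cn P → ℂ)) B)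
    {j : IrrCharacter G} (hj : j ∈ B) : ¬ p ∣ charDegree (j : G → ℂ) := by
  classical
  intro hd
  haveI := isPrime_of_pModular hM
  -- a generator
  obtain ⟨x, hxP, hx1⟩ : ∃ x ∈ P, x ≠ 1 := by
    have h1 : P ≠ ⊥ := by
      rintro rfl
      rw [Subgroup.card_bot] at hP
      exact hp.out.one_lt.ne hP
    obtain ⟨x, hx⟩ := Subgroup.ne_bot_iff_exists_ne_one.mp h1
    exact ⟨x.1, x.2, fun h => hx (Subtype.ext h)⟩
  have hPx : P = Subgroup.zpowers x := eq_zpowers_of_mem hP hxP hx1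
  have hx : orderOf x = p := by
    rw [← Nat.card_zpowers, ← hPx, hP]
  have hzero : (j : G → ℂ) x = 0 := by
    have hdvd : p ∣ Nat.card G := by
      rw [← hx]
      exact orderOf_dvd_natCard x
    obtain ⟨χ', hirr⟩ := j
    obtain ⟨n, ρ, hρ, rfl⟩ := id hirr
    haveI : ρ.IsIrreducible := hρ
    refine Cfsg.Agent.Lib.Char.DefectZero.character_eq_zero_of_defect_zero ρ p 1 hp.out
      (by rw [pow_one]; exact hdvd) ?_ ?_ x (by rw [hx])
    · rw [show 1 + 1 = 2 from rfl]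
      exact hp2
    · rw [pow_one]
      have := hd
      rwa [Cfsg.Agent.Lib.Char.Degree.charDegree_character] at this
  have h1 := IsInducedBlock.sub_mem (Cn P) hind (mem_blockOf_self θ) hj (classSum_mem_localCenter (M := M) x)
  rw [omegaHom_classSum, centralChar, hzero, mul_zero, zero_div, sub_zero, indHom_apply, omegaHom_apply,
    lin_apply] at h1
  have hne : (θ : Cn P → ℂ) 1 ≠ 0 := Cfsg.Agent.Lib.Char.Complete.irr_one_ne_zero θ.2
  -- the conjugates in the centralizer lie in `P`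
  let S : Finset (Cn P) := Finset.univ.filter (fun k => IsConj x (k : G))
  have hSP : ∀ k ∈ S, (k : G) ∈ P := by
    intro k hk
    have h2 : IsConj x (k : G) := (Finset.mem_filter.mp hk).2
    apply mem_of_orderOf_eq hP hp2 k.2
    obtain ⟨c, hc⟩ := isConj_iff.mp h2
    rw [← hc, ← hx]
    have h3 := (MulAut.conj c).orderOf_eq x
    rwa [MulAut.conj_apply] at h3
  have hterm : ∀ k : Cn P, (((restrCenter (Cn P) (classSum x) : Subalgebra.center ℂ (GA (Cn P))) : GA (Cn P)).coeff k) *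
      (θ : Cn P → ℂ) k = if k ∈ S then (θ : Cn P → ℂ) 1 else 0 := by
    intro k
    rw [coe_restrCenter, coeff_restr, coeff_classSum]
    by_cases hk : IsConj x (k : G)
    · have hk' : k ∈ S := Finset.mem_filter.mpr ⟨Finset.mem_univ _, hk⟩
      rw [if_pos hk, if_pos hk', one_mul, hθP k (hSP k hk')]
    · have hk' : k ∉ S := fun h => hk (Finset.mem_filter.mp h).2
      rw [if_neg hk, if_neg hk', zero_mul]
  simp only [hterm] at h1
  rw [Finset.sum_ite_mem, Finset.univ_inter, Finset.sum_const, nsmul_eq_mul, mul_div_assoc,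
    div_self hne, mul_one] at h1
  have h2 := (natCast_memLocalIdeal_iff hM _).mp h1
  -- the number of conjugates
  have hpos : 0 < S.card :=
    Finset.card_pos.mpr ⟨⟨x, le_centralizer hP hxP⟩, Finset.mem_filter.mpr ⟨Finset.mem_univ _, IsConj.refl _⟩⟩
  have hlt : S.card < p := by
    letI : Fintype P := Fintype.ofFinite _
    have hinj : Function.Injective (fun k : S => (⟨(k : Cn P), hSP _ k.2⟩ : P)) := by
      intro a b hab
      apply Subtype.ext
      apply Subtype.ext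
      exact congrArg (fun c : P => (c : G)) hab
    have hne1 : (1 : P) ∉ Set.range (fun k : S => (⟨(k : Cn P), hSP _ k.2⟩ : P)) := by
      rintro ⟨k, hk⟩
      have h3 : IsConj x ((k : Cn P) : G) := (Finset.mem_filter.mp k.2).2
      have h4 : ((k : Cn P) : G) = 1 := congrArg (fun c : P => (c : G)) hk
      rw [h4] at h3
      exact hx1 (isConj_one_right.mp h3.symm)
    have h5 : Fintype.card S < Fintype.card P := by
      apply Fintype.card_lt_of_injective_of_notMem _ hinj hne1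
    have h6 : Fintype.card P = p := by rw [← Nat.card_eq_fintype_card, hP]
    rw [h6, Fintype.card_coe] at h5
    exact h5
  exact Nat.not_dvd_of_pos_of_lt hpos hlt h2

variable [Fintype (Nn P)] [Fintype (DD P p)]

/-- The sum of the `κ - 1` on the centralizer. -/
theorem sum_fl_eq (hP : Nat.card P = p) (hp2 : ¬ p ^ 2 ∣ Nat.card G) (c : Cn P) :
    ∃ a : ℤ, ∑ d : DD P p, fl P d.1 c = (p : ℂ) * (a : ℂ) := by
  classical
  letI : Fintype P := Fintype.ofFinite _
  obtain ⟨K, -, hcard, hidx⟩ := exists_complement (P := P) hP hp2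
  obtain ⟨⟨u, v⟩, rfl⟩ := (mul_bijective hP hcard hidx).2 c
  have h1 : ∀ d : DD P p, fl P d.1 ((⟨u, le_centralizer hP u.2⟩ : Cn P) * (v : Cn P)) =
      ((d.1 ⟨u, le_centralizer hP u.2⟩ : ℂˣ) : ℂ) - 1 := fun d =>
    fl_mul_of_mem hcard d.2.1 _ v.2
  simp only [h1]
  rw [sum_DD hP hp2 u]
  split_ifs
  · exact ⟨0, by simp⟩
  · exact ⟨-1, by simp⟩

/-- The sum of the generalized characters. -/
noncomputable def Wf (P : Subgroup G) (p : ℕ) [Fintype (DD P p)] (θ : Cn P → ℂ) : G → ℂ :=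
  fun g => ∑ d : DD P p, Ws P θ d.1 g

theorem Wf_eq (θ : Cn P → ℂ) :
    Wf P p θ = indFun (Cn P) (fun c => ∑ d : DD P p, fl P d.1 c * θ c) := by
  have h1 : (fun c => ∑ d : DD P p, fl P d.1 c * θ c) =
      ∑ d : DD P p, (fun c => fl P d.1 c * θ c) := by
    funext c
    rw [Finset.sum_apply]
  rw [h1, indFun_sum]
  funext g
  rw [Finset.sum_apply]
  rfl

theorem isClass_Wf (θ : Cn P → ℂ) : IsClassFunction G (Wf P p θ) := by
  rw [Wf_eq]
  exact isClassFunction_indFun _ _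

/-- The central element. -/
noncomputable def zW (θ : IrrCharacter (Cn P)) : Subalgebra.center ℂ (GA G) :=
  ⟨ofFun (fun g => -((θ : Cn P → ℂ) 1 / (Nat.card (Cn P) : ℂ)) * conj (Wf P p (θ : Cn P → ℂ) g)), by
    rw [mem_center_iff]
    intro g h
    simp only [coeff_ofFun]
    rw [isClass_Wf]⟩

theorem coeff_zW (θ : IrrCharacter (Cn P)) (g : G) :
    ((zW (p := p) θ : Subalgebra.center ℂ (GA G)) : GA G).coeff g =
      -((θ : Cn P → ℂ) 1 / (Nat.card (Cn P) : ℂ)) * conj (Wf P p (θ : Cn P → ℂ) g) := rfl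

/-- The central element is local. -/
theorem zW_mem_local (hM : IsPModular p M) [M.IsPrime] (hP : Nat.card P = p)
    (hp2 : ¬ p ^ 2 ∣ Nat.card G) (θ : IrrCharacter (Cn P)) : zW (p := p) θ ∈ localCenter M G := by
  classical
  obtain ⟨K, -, hcard, hidx⟩ := exists_complement (P := P) hP hp2
  letI : Fintype (G ⧸ Cn P) := Fintype.ofFinite _
  rw [mem_localCenter]
  intro g
  rw [coeff_zW, Wf_eq]
  have hcl : IsClassFunction (Cn P) (fun c => ∑ d : DD P p, fl P d.1 c * (θ : Cn P → ℂ) c) := by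
    intro c h
    refine Finset.sum_congr rfl fun d _ => ?_
    rw [isClassFunction_of_isIrrCharacter θ.2 c h]
    congr 1
    simp only [fl, map_mul, map_inv]
    rw [mul_comm (d.1 h), mul_inv_cancel_right]
  rw [indFun_eq_sum_transversal (Cn P) _ hcl Quotient.out (fun q => Quotient.out_eq q) g, map_sum,
    Finset.mul_sum]
  refine memLocalRing_sum _ _ fun q _ => ?_
  set s := (Quotient.out q)⁻¹ * g * Quotient.out q with hs
  by_cases hsC : s ∈ Cn P
  · rw [extendByZero_of_mem _ _ hsC, ← Finset.sum_mul]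
    obtain ⟨a, ha⟩ := sum_fl_eq hP hp2 ⟨s, hsC⟩
    rw [ha]
    have hCcard : (Nat.card (Cn P) : ℂ) = (Nat.card K : ℂ) * (p : ℂ) := by
      rw [← Nat.cast_mul, ← hidx, Subgroup.card_mul_index]
    have hK0 : (Nat.card K : ℂ) ≠ 0 := Nat.cast_ne_zero.mpr Nat.card_pos.ne'
    have hp0 : (p : ℂ) ≠ 0 := by
      exact_mod_cast hp.out.ne_zero
    have h1 : -((θ : Cn P → ℂ) 1 / (Nat.card (Cn P) : ℂ)) * conj ((p : ℂ) * (a : ℂ) * (θ : Cn P → ℂ) ⟨s, hsC⟩) =
        (-(θ : Cn P → ℂ) 1) * (Nat.card K : ℂ)⁻¹ * ((a : ℂ) * conj ((θ : Cn P → ℂ) ⟨s, hsC⟩)) := by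
      rw [hCcard, map_mul, map_mul, map_natCast, map_intCast]
      field_simp
    rw [h1]
    exact memLocalRing_mul (memLocalRing_mul (memLocalRing_neg
      (memLocalRing_of_isIntegral (Cfsg.Agent.Lib.BlockT.NormalP.isIntegral_irr θ 1)))
      (memLocalRing_natCast_inv hM hcard))
      (memLocalRing_mul (memLocalRing_intCast a) (memLocalRing_of_isIntegral
        (Cfsg.Agent.Lib.BlockP.Defect.isIntegral_conj (Cfsg.Agent.Lib.BlockT.NormalP.isIntegral_irr θ _))))
  · rw [extendByZero_of_not_mem _ _ hsC, map_zero, mul_zero]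
    exact memLocalRing_zero

/-- The value of the functional of `j` on the central element. -/
theorem lin_zW (θ : IrrCharacter (Cn P)) (j : IrrCharacter G) :
    lin (j : G → ℂ) (zW (p := p) θ : GA G) =
      -((θ : Cn P → ℂ) 1 * ((Cn P).index : ℂ) *
        conj (∑ d : DD P p, classInner (Ws P (θ : Cn P → ℂ) d.1) (j : G → ℂ))) := by
  have hC0 : (Nat.card (Cn P) : ℂ) ≠ 0 := Nat.cast_ne_zero.mpr Nat.card_pos.ne'
  have hG0 : (Nat.card G : ℂ) ≠ 0 := Nat.cast_ne_zero.mpr Nat.card_pos.ne'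
  have hcard : (Nat.card G : ℂ) = (Nat.card (Cn P) : ℂ) * ((Cn P).index : ℂ) := by
    rw [← Nat.cast_mul, Subgroup.card_mul_index]
  have h1 : ∑ d : DD P p, classInner (Ws P (θ : Cn P → ℂ) d.1) (j : G → ℂ) =
      (Nat.card G : ℂ)⁻¹ * ∑ g, Wf P p (θ : Cn P → ℂ) g * conj ((j : G → ℂ) g) := by
    simp only [classInner, Wf, Finset.sum_mul, Finset.mul_sum]
    rw [Finset.sum_comm]
  rw [lin_apply]
  simp only [coeff_zW]
  rw [h1, map_mul, map_inv₀, map_natCast, map_sum]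
  have h2 : ∀ g, -((θ : Cn P → ℂ) 1 / (Nat.card (Cn P) : ℂ)) * conj (Wf P p (θ : Cn P → ℂ) g) * (j : G → ℂ) g =
      -((θ : Cn P → ℂ) 1 / (Nat.card (Cn P) : ℂ)) * conj (Wf P p (θ : Cn P → ℂ) g * conj ((j : G → ℂ) g)) := by
    intro g
    rw [map_mul, Complex.conj_conj, mul_assoc]
  simp only [h2]
  rw [← Finset.mul_sum, hcard]
  have hidx : ((Cn P).index : ℂ) ≠ 0 := index_ne_zero' _
  field_simp

/-- The value of the induced central character on the central element. -/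
theorem indHom_zW (hP : Nat.card P = p) (hp2 : ¬ p ^ 2 ∣ Nat.card G) (θ : IrrCharacter (Cn P))
    (hθP : ∀ x : Cn P, (x : G) ∈ P → (θ : Cn P → ℂ) x = (θ : Cn P → ℂ) 1) {e : ℕ}
    (hN : Nat.card (stabN P (θ : Cn P → ℂ)) = e * Nat.card (Cn P)) :
    indHom (Cn P) θ (zW (p := p) θ) = ((p : ℂ) - 1) * (e : ℂ) := by
  have hC0 : (Nat.card (Cn P) : ℂ) ≠ 0 := Nat.cast_ne_zero.mpr Nat.card_pos.ne'
  have hne : (θ : Cn P → ℂ) 1 ≠ 0 := Cfsg.Agent.Lib.Char.Complete.irr_one_ne_zero θ.2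
  have h1 : classInner (θ : Cn P → ℂ) (fun c : Cn P => Wf P p (θ : Cn P → ℂ) c) = -((p : ℂ) - 1) * (e : ℂ) := by
    have h2 : classInner (θ : Cn P → ℂ) (fun c : Cn P => Wf P p (θ : Cn P → ℂ) c) =
        ∑ d : DD P p, classInner (θ : Cn P → ℂ) (fun c : Cn P => Ws P (θ : Cn P → ℂ) d.1 c) := by
      simp only [classInner_subgroup_eq, Wf, map_sum, Finset.mul_sum]
      rw [Finset.sum_comm]
    rw [h2]
    simp only [classInner_res_Ws_self hP hp2 θ.2 hθP hN (ThGram.isD_of_DD _)]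
    rw [Finset.sum_const, Finset.card_univ, nsmul_eq_mul, ← Nat.card_eq_fintype_card, card_DD hP hp2,
      Nat.cast_sub hp.out.one_lt.le]
    push_cast
    ring
  rw [indHom_apply, omegaHom_apply, lin_apply]
  have h3 : ∀ k : Cn P, ((restrCenter (Cn P) (zW (p := p) θ) : Subalgebra.center ℂ (GA (Cn P))) : GA (Cn P)).coeff k *
      (θ : Cn P → ℂ) k = -((θ : Cn P → ℂ) 1 / (Nat.card (Cn P) : ℂ)) *
        ((θ : Cn P → ℂ) k * conj (Wf P p (θ : Cn P → ℂ) k)) := by
    intro k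
    rw [coe_restrCenter, coeff_restr, coeff_zW]
    ring
  simp only [h3]
  rw [← Finset.mul_sum]
  rw [classInner_subgroup_eq] at h1
  have h4 : ∑ k : Cn P, (θ : Cn P → ℂ) k * conj (Wf P p (θ : Cn P → ℂ) k) =
      (Nat.card (Cn P) : ℂ) * (-((p : ℂ) - 1) * (e : ℂ)) := by
    rw [← h1]
    field_simp
  rw [h4]
  field_simp

omit [Fintype (Cn P)] [Fintype (Nn P)] [Fintype (DD P p)] [Fintype G] in
/-- The number of Sylow subgroups. -/
theorem index_normalizer_modEq [Finite G] (hP : Nat.card P = p) (hp2 : ¬ p ^ 2 ∣ Nat.card G) :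
    (Nn P).index ≡ 1 [MOD p] := by
  have hPp : IsPGroup p P := IsPGroup.of_card (n := 1) (by rw [hP, pow_one])
  have hndvd : ¬ p ∣ P.index := by
    intro h1
    apply hp2
    have h2 := P.card_mul_index
    rw [hP] at h2
    rw [← h2, pow_two]
    exact mul_dvd_mul_left p h1
  let P₀ : Sylow p G := hPp.toSylow hndvd
  have h1 := Sylow.card_eq_index_normalizer P₀
  have h2 : Nat.card (Sylow p G) ≡ 1 [MOD p] := card_sylow_modEq_one p G
  rw [h1] at h2
  exact h2

omit [Fintype (Cn P)] [Fintype (Nn P)] [Fintype (DD P p)] [Fintype G] in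
/-- The inertial index is prime to `p`. -/
theorem not_dvd_inertial [Finite G] (hP : Nat.card P = p) (hp2 : ¬ p ^ 2 ∣ Nat.card G) {θ : Cn P → ℂ} {e : ℕ}
    (hN : Nat.card (stabN P θ) = e * Nat.card (Cn P)) : ¬ p ∣ e := by
  intro h
  apply hp2
  have h1 : p ∣ Nat.card (Cn P) := by
    rw [← hP]
    exact Subgroup.card_dvd_of_le (le_centralizer hP)
  have h2 : p ^ 2 ∣ Nat.card (stabN P θ) := by
    rw [hN, sq]
    exact mul_dvd_mul h h1
  exact h2.trans ((Subgroup.card_subgroup_dvd_card _).trans (Subgroup.card_subgroup_dvd_card _))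

/-- **The congruence for the degrees.** -/
theorem dvd_degree_sub [Fintype (IrrCharacter G)] (hM : IsPModular p M) (hP : Nat.card P = p)
    (hp2 : ¬ p ^ 2 ∣ Nat.card G) (θ : IrrCharacter (Cn P))
    (hθP : ∀ x : Cn P, (x : G) ∈ P → (θ : Cn P → ℂ) x = (θ : Cn P → ℂ) 1)
    {B : Set (IrrCharacter G)} (hind : IsInducedBlock M (Cn P) (blockOf M (θ : Cn P → ℂ)) B)
    {e f' : ℕ} (hN : Nat.card (stabN P (θ : Cn P → ℂ)) = e * Nat.card (Cn P))
    (hf : Nat.card (Nn P) = f' * e * Nat.card (Cn P))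
    {j : IrrCharacter G} (hj : j ∈ B) (s : ℤ)
    (hs : ∑ d : DD P p, classInner (Ws P (θ : Cn P → ℂ) d.1) (j : G → ℂ) = (s : ℂ)) :
    (p : ℤ) ∣ (charDegree (j : G → ℂ) : ℤ) - (f' * charDegree (θ : Cn P → ℂ) : ℤ) * s := by
  classical
  haveI := isPrime_of_pModular hM
  have h1 := IsInducedBlock.sub_mem (Cn P) hind (mem_blockOf_self θ) hj (zW_mem_local hM hP hp2 θ)
  rw [indHom_zW hP hp2 θ hθP hN, omegaHom_apply, lin_zW, hs, map_intCast] at h1
  have hj1 : (j : G → ℂ) 1 = (charDegree (j : G → ℂ) : ℂ) :=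
    (Cfsg.Agent.Lib.Char.Degree.charDegree_natCast (isCharacter_of_isIrrCharacter j.2)).symm
  have hθ1 : (θ : Cn P → ℂ) 1 = (charDegree (θ : Cn P → ℂ) : ℂ) :=
    (Cfsg.Agent.Lib.Char.Degree.charDegree_natCast (isCharacter_of_isIrrCharacter θ.2)).symm
  have hne : (j : G → ℂ) 1 ≠ 0 := Cfsg.Agent.Lib.Char.Complete.irr_one_ne_zero j.2
  have h2 := memLocalIdeal_mul_left (memLocalRing_natCast (M := M) (charDegree (j : G → ℂ))) h1
  -- indices
  have hidx : (Cn P).index = (Nn P).index * (f' * e) := by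
    have h3 : Nat.card (Cn P) * (Cn P).index = Nat.card (Cn P) * ((Nn P).index * (f' * e)) := by
      rw [Subgroup.card_mul_index, ← Subgroup.card_mul_index (Nn P), hf]
      ring
    exact Nat.eq_of_mul_eq_mul_left Nat.card_pos h3
  set d := charDegree (j : G → ℂ) with hd
  set t := charDegree (θ : Cn P → ℂ) with ht
  set a := (Nn P).index with ha
  have h3 : (d : ℂ) * (((p : ℂ) - 1) * (e : ℂ) - (-((θ : Cn P → ℂ) 1 * ((Cn P).index : ℂ) * (s : ℂ))) / (j : G → ℂ) 1) =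
      (((d : ℤ) * ((p : ℤ) - 1) * (e : ℤ) + (t : ℤ) * ((a : ℤ) * ((f' : ℤ) * (e : ℤ))) * s : ℤ) : ℂ) := by
    have hd0 : (d : ℂ) ≠ 0 := hj1 ▸ hne
    rw [hj1, hθ1, hidx]
    push_cast
    field_simp
    ring
  rw [h3] at h2
  have h4 := (intCast_memLocalIdeal_iff hM _).mp h2
  -- arithmetic
  have hpe := not_dvd_inertial hP hp2 hN
  have hpi : Prime (p : ℤ) := Nat.prime_iff_prime_int.mp hp.out
  have h5 : (p : ℤ) ∣ (e : ℤ) * ((d : ℤ) * ((p : ℤ) - 1) + (t : ℤ) * ((a : ℤ) * (f' : ℤ)) * s) := by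
    convert h4 using 1
    ring
  have h6 : (p : ℤ) ∣ (d : ℤ) * ((p : ℤ) - 1) + (t : ℤ) * ((a : ℤ) * (f' : ℤ)) * s := by
    refine (hpi.dvd_or_dvd h5).resolve_left ?_
    intro h7
    exact hpe (by exact_mod_cast h7)
  have h7 : (p : ℤ) ∣ (a : ℤ) - 1 := by
    have h8 := index_normalizer_modEq hP hp2
    have h9 : (1 : ℤ) ≡ (a : ℤ) [ZMOD p] := by
      have := (Int.natCast_modEq_iff.mpr h8).symm
      simpa using this
    exact h9.dvd
  obtain ⟨m, hm⟩ := h7
  obtain ⟨n, hn⟩ := h6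
  have h8 : (a : ℤ) = p * m + 1 := by linarith
  refine ⟨(f' : ℤ) * t * s * m + d - n, ?_⟩
  rw [h8] at hn
  linear_combination (-1 : ℤ) * hn

end Cfsg.Agent.Lib.ModRep.ThDeg

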