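import Cfsg.Agent.Lib.ModRep.Princ
import Cfsg.Agent.Lib.CharZeros.Gallagher
import Cfsg.Agent.Lib.Char.Conj

/-!
# Characters induced from `(κ - 1) θ`, `θ` an irreducible character of `C_G(P)` with `P` in the kernel

`P` is a subgroup of order `p`, `p ^ 2 ∤ |G|`, `C = C_G(P) = P × K`, `θ ∈ Irr(C)` with `P` in the kernel.
For `κ` a non-trivial linear character of `C` with `κ ^ p = 1`, `Ws P θ κ = Ind_C^G ((κ - 1) θ)`.
We compute the Gram matrix of these generalized characters.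
-/

set_option autoImplicit false
set_option linter.style.haveILetI false
set_option linter.unusedSectionVars false

namespace Cfsg.Agent.Lib.ModRep.ThGram

open Cfsg MonoidAlgebra
open Cfsg.Agent.Lib.Blocks.Local Cfsg.Agent.Lib.Blocks.Central
open Cfsg.Agent.Lib.Char.Induced Cfsg.Agent.Lib.Char.Ortho Cfsg.Agent.Lib.Char.Linear
open Cfsg.Agent.Lib.Char.Basic Cfsg.Agent.Lib.Char.GenLattice Cfsg.Agent.Lib.Char.IndSpan
open Cfsg.Agent.Lib.ExcP.Gram Cfsg.Agent.Lib.ExcP.Inst Cfsg.Agent.Lib.ModRep.Prime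
open scoped ComplexConjugate

universe u

section Central

variable {H : Type u} [Group H] [Fintype H]

/-- A central element of the group, in the group algebra. -/
theorem isCentral_single {u : H} (hu : ∀ h, h * u = u * h) : IsCentral (single u (1 : ℂ) : GA H) := by
  rw [isCentral_iff_comm]
  intro y
  induction y using MonoidAlgebra.induction_on with
  | of g =>
    show single g (1 : ℂ) * single u 1 = single u 1 * single g 1
    rw [single_mul_single, single_mul_single, hu]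
  | add a b ha hb => rw [add_mul, mul_add, ha, hb]
  | smul r a ha => rw [smul_mul_assoc, mul_smul_comm, ha]

/-- The value of an irreducible character at a product with a central element. -/
theorem irr_mul_of_central {χ : H → ℂ} (hχ : IsIrrCharacter H χ) {u : H} (hu : ∀ h, h * u = u * h)
    (d : H) : χ (u * d) = χ u / χ 1 * χ d := by
  have h1 := lin_central_mul hχ (isCentral_single hu) (single d (1 : ℂ))
  rw [single_mul_single, lin_single, lin_single, omega, lin_single] at h1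
  simpa using h1

end Central

variable {G : Type u} [Group G] {p : ℕ} [hp : Fact p.Prime] {P : Subgroup G}

section Split

/-- Elements of `P` are central in `C`. -/
theorem central_of_mem {u : Cn P} (hu : (u : G) ∈ P) (h : Cn P) : h * u = u * h := by
  apply Subtype.ext
  exact (Subgroup.mem_centralizer_iff.mp h.2 _ hu).symm

/-- `θ` with `P` in its kernel. -/
theorem irr_mul_of_mem [Fintype (Cn P)] {θ : Cn P → ℂ} (hθ : IsIrrCharacter (Cn P) θ)
    (hθP : ∀ x : Cn P, (x : G) ∈ P → θ x = θ 1) {u : Cn P} (hu : (u : G) ∈ P) (d : Cn P) :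
    θ (u * d) = θ d := by
  rw [irr_mul_of_central hθ (central_of_mem hu), hθP u hu,
    div_self (Cfsg.Agent.Lib.Char.Complete.irr_one_ne_zero hθ), one_mul]

/-- Linear characters of order dividing `p` are trivial on `p'`-subgroups. -/
theorem hom_eq_one_of_mem [Finite G] {K : Subgroup (Cn P)} (hcard : ¬ p ∣ Nat.card K) {κ : Cn P →* ℂˣ}
    (hκ : ∀ x, κ x ^ p = 1) {v : Cn P} (hv : v ∈ K) : κ v = 1 := by
  apply apply_eq_one_of_not_dvd hκ
  intro hd
  apply hcard
  have h1 : orderOf (v : G) = orderOf (⟨v, hv⟩ : K) := by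
    rw [← Subgroup.orderOf_coe (⟨v, hv⟩ : K), ← Subgroup.orderOf_coe (v : Cn P)]
  rw [h1] at hd
  exact hd.trans (orderOf_dvd_natCard _)

/-- The function `κ - 1` is invariant under `K`. -/
theorem fl_mul_of_mem [Finite G] {K : Subgroup (Cn P)} (hcard : ¬ p ∣ Nat.card K) {κ : Cn P →* ℂˣ}
    (hκ : ∀ x, κ x ^ p = 1) (c : Cn P) {v : Cn P} (hv : v ∈ K) : fl P κ (c * v) = fl P κ c := by
  rw [fl, fl, map_mul, hom_eq_one_of_mem hcard hκ hv, mul_one]

/-- The factorization of a sum over `C = P × K`. -/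
theorem sum_mul_factor [Finite G] [Fintype (Cn P)] (hP : Nat.card P = p) {K : Subgroup (Cn P)}
    (hcard : ¬ p ∣ Nat.card K) (hidx : K.index = p) {f g : Cn P → ℂ}
    (hf : ∀ c, ∀ v ∈ K, f (c * v) = f c)
    (hg : ∀ c : Cn P, (c : G) ∈ P → ∀ d, g (c * d) = g d) :
    (Nat.card (Cn P) : ℂ) * ∑ c, f c * g c = (∑ c, f c) * ∑ c, g c := by
  classical
  letI : Fintype P := Fintype.ofFinite _
  letI : Fintype K := Fintype.ofFinite _
  have hbij := mul_bijective hP hcard hidx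
  have hCcard : (Nat.card (Cn P) : ℂ) = (Nat.card K : ℂ) * (Nat.card P : ℂ) := by
    rw [← Nat.cast_mul, hP, ← hidx, Subgroup.card_mul_index]
  have h1 : ∀ F : Cn P → ℂ, ∑ c, F c = ∑ u : P, ∑ v : K, F (⟨u, le_centralizer hP u.2⟩ * (v : Cn P)) := by
    intro F
    rw [← hbij.sum_comp, Fintype.sum_prod_type]
  have hf' : ∀ (u : P) (v : K), f (⟨u, le_centralizer hP u.2⟩ * (v : Cn P)) = f ⟨u, le_centralizer hP u.2⟩ :=
    fun u v => hf _ _ v.2
  have hg' : ∀ (u : P) (v : K), g (⟨u, le_centralizer hP u.2⟩ * (v : Cn P)) = g v :=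
    fun u v => hg ⟨u, le_centralizer hP u.2⟩ u.2 _
  rw [h1 (fun c => f c * g c), h1 f, h1 g]
  simp only [hf', hg']
  simp only [Finset.sum_const, Finset.card_univ, ← Nat.card_eq_fintype_card, nsmul_eq_mul,
    ← Finset.mul_sum, ← Finset.sum_mul]
  rw [hCcard]
  ring

/-- The factorization of the inner product on `C = P × K`. -/
theorem classInner_mul_mul [Finite G] [Fintype (Cn P)] (hP : Nat.card P = p) {K : Subgroup (Cn P)}
    (hcard : ¬ p ∣ Nat.card K) (hidx : K.index = p) {f₁ f₂ g₁ g₂ : Cn P → ℂ}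
    (hf₁ : ∀ c, ∀ v ∈ K, f₁ (c * v) = f₁ c) (hf₂ : ∀ c, ∀ v ∈ K, f₂ (c * v) = f₂ c)
    (hg₁ : ∀ c : Cn P, (c : G) ∈ P → ∀ d, g₁ (c * d) = g₁ d)
    (hg₂ : ∀ c : Cn P, (c : G) ∈ P → ∀ d, g₂ (c * d) = g₂ d) :
    classInner (fun c => f₁ c * g₁ c) (fun c => f₂ c * g₂ c) = classInner f₁ f₂ * classInner g₁ g₂ := by
  have hC : (Nat.card (Cn P) : ℂ) ≠ 0 := Nat.cast_ne_zero.mpr Nat.card_pos.ne'
  have key := sum_mul_factor hP hcard hidx (f := fun c => f₁ c * conj (f₂ c))
    (g := fun c => g₁ c * conj (g₂ c))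
    (fun c v hv => by simp only [hf₁ c v hv, hf₂ c v hv])
    (fun c hc d => by simp only [hg₁ c hc d, hg₂ c hc d])
  simp only [classInner_subgroup_eq]
  have h1 : ∀ c : Cn P, f₁ c * g₁ c * conj (f₂ c * g₂ c) = (f₁ c * conj (f₂ c)) * (g₁ c * conj (g₂ c)) := by
    intro c
    rw [map_mul]
    ring
  simp only [h1]
  have h2 : ∑ c, f₁ c * conj (f₂ c) * (g₁ c * conj (g₂ c)) = (Nat.card (Cn P) : ℂ)⁻¹ *
      ((∑ c, f₁ c * conj (f₂ c)) * ∑ c, g₁ c * conj (g₂ c)) := by
    rw [← key, inv_mul_cancel_left₀ hC]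
  rw [h2]
  ring

end Split

section Action

/-- The action of the normalizer on functions on the centralizer. -/
def cjt (P : Subgroup G) (y : Nn P) (θ : Cn P → ℂ) : Cn P → ℂ := fun c => θ (cjH P y c)

theorem cjt_apply (P : Subgroup G) (y : Nn P) (θ : Cn P → ℂ) (c : Cn P) : cjt P y θ c = θ (cjH P y c) := rfl

theorem cjH_bijective (P : Subgroup G) (y : Nn P) : Function.Surjective (cjH P y) := by
  intro c
  refine ⟨cjH P y⁻¹ c, ?_⟩
  apply Subtype.ext
  simp only [coe_cjH, Subgroup.coe_inv, inv_inv]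
  group

/-- Conjugates of irreducible characters are irreducible. -/
theorem isIrr_cjt (y : Nn P) {θ : Cn P → ℂ} (hθ : IsIrrCharacter (Cn P) θ) :
    IsIrrCharacter (Cn P) (cjt P y θ) :=
  Cfsg.Agent.Lib.Char.Conj.isIrrCharacter_comp (cjH P y) (cjH_bijective P y) hθ

/-- Conjugates of characters with `P` in their kernel have `P` in the kernel. -/
theorem cjt_ker {θ : Cn P → ℂ} (hθP : ∀ x : Cn P, (x : G) ∈ P → θ x = θ 1) (y : Nn P)
    (x : Cn P) (hx : (x : G) ∈ P) : cjt P y θ x = cjt P y θ 1 := by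
  rw [cjt_apply, cjt_apply, map_one]
  apply hθP
  have h1 : (y : G)⁻¹ ∈ Nn P := (Nn P).inv_mem y.2
  have h2 := (Subgroup.mem_set_normalizer_iff.mp h1 x).mp hx
  simpa using h2

/-- The stabilizer of a function on the centralizer, in the normalizer. -/
def stabN (P : Subgroup G) (θ : Cn P → ℂ) : Subgroup (Nn P) where
  carrier := {y | ∀ c, θ (cjH P y c) = θ c}
  mul_mem' := by
    intro y z hy hz c
    have h1 : cjH P (y * z) c = cjH P z (cjH P y c) := by
      apply Subtype.ext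
      simp only [coe_cjH, Subgroup.coe_mul]
      group
    rw [h1, hz, hy]
  one_mem' := by
    intro c
    congr 1
    apply Subtype.ext
    simp
  inv_mem' := by
    intro y hy c
    have h1 : c = cjH P y (cjH P y⁻¹ c) := by
      apply Subtype.ext
      simp only [coe_cjH, Subgroup.coe_inv, inv_inv]
      group
    conv_rhs => rw [h1, hy]

theorem mem_stabN {θ : Cn P → ℂ} {y : Nn P} : y ∈ stabN P θ ↔ ∀ c, θ (cjH P y c) = θ c := Iff.rfl

theorem mem_stabN_iff {θ : Cn P → ℂ} {y : Nn P} : y ∈ stabN P θ ↔ cjt P y θ = θ :=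
  ⟨fun h => funext h, fun h c => congrFun h c⟩

/-- The centralizer lies in the stabilizer of a class function. -/
theorem mem_stabN_of_mem {θ : Cn P → ℂ} (hθ : IsClassFunction (Cn P) θ) {y : Nn P} (hy : (y : G) ∈ Cn P) :
    y ∈ stabN P θ := by
  intro c
  have h1 := hθ c (⟨y, hy⟩ : Cn P)⁻¹
  rw [← h1]
  congr 1
  apply Subtype.ext
  simp

/-- The relation of being conjugate under the stabilizer of `θ`. -/
def rT (P : Subgroup G) (p : ℕ) (θ : Cn P → ℂ) : Setoid (DD P p) where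
  r a b := ∃ y : Nn P, y ∈ stabN P θ ∧ a.1 = cj P y b.1
  iseqv :=
    { refl := fun a => ⟨1, (stabN P θ).one_mem, (cj_one P a.1).symm⟩
      symm := by
        rintro a b ⟨y, hys, hy⟩
        refine ⟨y⁻¹, (stabN P θ).inv_mem hys, ?_⟩
        rw [hy, ← cj_mul, inv_mul_cancel, cj_one]
      trans := by
        rintro a b c ⟨y, hys, hy⟩ ⟨z, hzs, hz⟩
        refine ⟨y * z, (stabN P θ).mul_mem hys hzs, ?_⟩
        rw [cj_mul, ← hz, hy] }

end Action

section Fam

variable [Fintype G]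

/-- The induced generalized character. -/
noncomputable def Ws (P : Subgroup G) (θ : Cn P → ℂ) (κ : Cn P →* ℂˣ) : G → ℂ :=
  indFun (Cn P) (fun c => fl P κ c * θ c)

theorem isGen_Ws {θ : Cn P → ℂ} (hθ : IsIrrCharacter (Cn P) θ) (κ : Cn P →* ℂˣ) [Fintype (Cn P)] :
    IsGeneralizedCharacter G (Ws P θ κ) := by
  apply isGenChar_indFun
  have h1 : (fun c => fl P κ c * θ c) = (fun c : Cn P => ((κ c : ℂˣ) : ℂ) * θ c) - θ := by
    funext c
    simp [fl, sub_mul]
  rw [h1]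
  refine isGenChar_sub (isGenChar_of_isIrr ?_) (isGenChar_of_isIrr hθ)
  exact Cfsg.Agent.Lib.CharZeros.Gallagher.isIrrCharacter_mul_linear
    (isCharacter_of_isIrrCharacter (isIrrCharacter_of_hom κ)) (by simp) hθ

theorem Ws_one (θ : Cn P → ℂ) (κ : Cn P →* ℂˣ) : Ws P θ κ 1 = 0 := by
  rw [Ws, indFun_one]
  simp [fl]

/-- `Ws` vanishes on `p`-regular elements. -/
theorem Ws_regular (θ : Cn P → ℂ) {κ : Cn P →* ℂˣ} (hκ : ∀ x, κ x ^ p = 1) {y : G}
    (hy : ¬ p ∣ orderOf y) : Ws P θ κ y = 0 := by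
  classical
  rw [Ws]
  show (Nat.card (Cn P) : ℂ)⁻¹ * _ = 0
  apply mul_eq_zero_of_right
  refine Finset.sum_eq_zero fun x _ => ?_
  by_cases hx : x⁻¹ * y * x ∈ Cn P
  · rw [extendByZero_of_mem _ _ hx]
    have h1 : κ ⟨x⁻¹ * y * x, hx⟩ = 1 := by
      apply apply_eq_one_of_not_dvd hκ
      have h2 : orderOf (x⁻¹ * y * x) = orderOf y := by
        have h3 : x⁻¹ * y * x = MulAut.conj x⁻¹ y := by
          simp [MulAut.conj_apply]
        rw [h3, MulEquiv.orderOf_eq]
      show ¬ p ∣ orderOf (x⁻¹ * y * x)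
      rw [h2]
      exact hy
    rw [fl, h1]
    simp
  · exact extendByZero_of_not_mem _ _ hx

variable [Fintype (Nn P)]

/-- The value of `Ws` on the centralizer. -/
theorem Ws_apply (hP : Nat.card P = p) (hp2 : ¬ p ^ 2 ∣ Nat.card G) (θ : Cn P → ℂ) {κ : Cn P →* ℂˣ}
    (hκ : ∀ x, κ x ^ p = 1) (x : Cn P) :
    Ws P θ κ x = (Nat.card (Cn P) : ℂ)⁻¹ * ∑ y : Nn P, fl P (cj P y κ) x * cjt P y θ x := by
  classical
  rw [Ws, indFun_apply]
  congr 1
  have h0 : ∀ y : G, y ∉ Nn P → extendByZero (Cn P) (fun c => fl P κ c * θ c) (y⁻¹ * (x : G) * y) = 0 := by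
    intro y hy
    by_cases hw : y⁻¹ * (x : G) * y ∈ Cn P
    · rw [extendByZero_of_mem _ _ hw]
      have h1 := ext_eq_zero hP hp2 hκ x hy
      rw [extendByZero_of_mem _ _ hw] at h1
      rw [h1, zero_mul]
    · exact extendByZero_of_not_mem _ _ hw
  have h1 : ∑ y : G, extendByZero (Cn P) (fun c => fl P κ c * θ c) (y⁻¹ * (x : G) * y) =
      ∑ y ∈ Finset.univ.filter (fun y : G => y ∈ Nn P),
        extendByZero (Cn P) (fun c => fl P κ c * θ c) (y⁻¹ * (x : G) * y) := by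
    symm
    apply Finset.sum_filter_of_ne
    intro y _ hne
    by_contra hcon
    exact hne (h0 y hcon)
  rw [h1, Finset.sum_subtype (p := fun y : G => y ∈ Nn P) _ (by simp)]
  refine Fintype.sum_congr _ _ (fun y => ?_)
  rw [extendByZero_of_mem _ _ (conj_mem_centralizer P y.2 x.2)]
  rfl

variable [Fintype (Cn P)]

/-- The inner product with `Ws`, on the centralizer. -/
theorem classInner_res_Ws (hP : Nat.card P = p) (hp2 : ¬ p ^ 2 ∣ Nat.card G) (φ θ : Cn P → ℂ)
    {κ : Cn P →* ℂˣ} (hκ : ∀ x, κ x ^ p = 1) :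
    classInner φ (fun c : Cn P => Ws P θ κ c) =
      (Nat.card (Cn P) : ℂ)⁻¹ * ∑ y : Nn P, classInner φ (fun c => fl P (cj P y κ) c * cjt P y θ c) := by
  simp only [classInner_subgroup_eq]
  simp only [Ws_apply hP hp2 θ hκ, map_mul, map_inv₀, map_natCast, map_sum]
  have h2 : ∀ x : Cn P, φ x * ((Nat.card (Cn P) : ℂ)⁻¹ * ∑ y : Nn P, (conj (fl P (cj P y κ) x) * conj (cjt P y θ x)))
      = (Nat.card (Cn P) : ℂ)⁻¹ * ∑ y : Nn P, φ x * (conj (fl P (cj P y κ) x) * conj (cjt P y θ x)) := by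
    intro x
    rw [Finset.mul_sum, Finset.mul_sum, Finset.mul_sum]
    refine Finset.sum_congr rfl fun y _ => ?_
    ring
  simp only [h2]
  rw [← Finset.mul_sum, ← Finset.mul_sum, Finset.sum_comm]

/-- Inner product in terms of the action of `N`. -/
theorem classInner_Ws_Ws (hP : Nat.card P = p) (hp2 : ¬ p ^ 2 ∣ Nat.card G) (θ θ' : Cn P → ℂ)
    (lam : Cn P →* ℂˣ) {κ : Cn P →* ℂˣ} (hκ : ∀ x, κ x ^ p = 1) :
    classInner (Ws P θ lam) (Ws P θ' κ) = (Nat.card (Cn P) : ℂ)⁻¹ *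
      ∑ y : Nn P, classInner (fun c => fl P lam c * θ c) (fun c => fl P (cj P y κ) c * cjt P y θ' c) := by
  have h1 : IsClassFunction G (Ws P θ' κ) := isClassFunction_indFun _ _
  rw [show Ws P θ lam = indFun (Cn P) (fun c => fl P lam c * θ c) from rfl,
    classInner_indFun_left _ _ _ h1]
  exact classInner_res_Ws hP hp2 _ θ' hκ

end Fam

theorem isD_of_DD (d : DD P p) : IsD P p d.1 := d.2

section Gram

variable [Fintype G] [Fintype (Nn P)] [Fintype (Cn P)]

open scoped Classical in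
/-- The inner product of the functions on the centralizer. -/
theorem classInner_fl_cjt (hP : Nat.card P = p) (hp2 : ¬ p ^ 2 ∣ Nat.card G) {θ θ' : Cn P → ℂ}
    (hθ : IsIrrCharacter (Cn P) θ) (hθ' : IsIrrCharacter (Cn P) θ')
    (hθP : ∀ x : Cn P, (x : G) ∈ P → θ x = θ 1) (hθ'P : ∀ x : Cn P, (x : G) ∈ P → θ' x = θ' 1)
    {lam κ : Cn P →* ℂˣ} (hlam : ∀ x, lam x ^ p = 1) (hκ : ∀ x, κ x ^ p = 1) (y : Nn P) :
    classInner (fun c => fl P lam c * θ c) (fun c => fl P (cj P y κ) c * cjt P y θ' c) =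
      classInner (fl P lam) (fl P (cj P y κ)) * if θ = cjt P y θ' then 1 else 0 := by
  obtain ⟨K, -, hcard, hidx⟩ := exists_complement (P := P) hP hp2
  rw [classInner_mul_mul hP hcard hidx (fun c v hv => fl_mul_of_mem hcard hlam c hv)
    (fun c v hv => fl_mul_of_mem (κ := cj P y κ) hcard (fun x => hκ _) c hv)
    (fun c hc d => irr_mul_of_mem hθ hθP hc d)
    (fun c hc d => irr_mul_of_mem (isIrr_cjt y hθ') (cjt_ker hθ'P y) hc d),
    classInner_irr hθ (isIrr_cjt y hθ')]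

open scoped Classical in
/-- The inner product, in terms of the number of conjugating elements. -/
theorem classInner_Ws_Ws_card (hP : Nat.card P = p) (hp2 : ¬ p ^ 2 ∣ Nat.card G) {θ : Cn P → ℂ}
    (hθ : IsIrrCharacter (Cn P) θ) (hθP : ∀ x : Cn P, (x : G) ∈ P → θ x = θ 1)
    {a b : Cn P →* ℂˣ} (ha : IsD P p a) (hb : IsD P p b) :
    classInner (Ws P θ a) (Ws P θ b) = (Nat.card (Cn P) : ℂ)⁻¹ *
      (Nat.card (stabN P θ) + Nat.card {y : Nn P // y ∈ stabN P θ ∧ a = cj P y b}) := by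
  rw [classInner_Ws_Ws hP hp2 θ θ a hb.1]
  congr 1
  have h1 : ∀ y : Nn P, classInner (fun c => fl P a c * θ c) (fun c => fl P (cj P y b) c * cjt P y θ c) =
      (if y ∈ stabN P θ then 1 else 0) + (if y ∈ stabN P θ ∧ a = cj P y b then 1 else 0) := by
    intro y
    rw [classInner_fl_cjt hP hp2 hθ hθ hθP hθP ha.1 hb.1 y, classInner_fl_fl ha.2 (cj_isD hb y).2]
    have h2 : θ = cjt P y θ ↔ y ∈ stabN P θ := by
      rw [mem_stabN_iff, eq_comm]
    simp only [h2]
    by_cases h3 : y ∈ stabN P θ <;> by_cases h4 : a = cj P y b <;> simp [h3, h4]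
  simp only [h1]
  rw [Finset.sum_add_distrib, Finset.sum_boole, Finset.sum_boole]
  congr 2
  · show _ = Nat.card {y : Nn P // y ∈ stabN P θ}
    rw [Nat.card_eq_fintype_card, Fintype.card_subtype]
  · rw [Nat.card_eq_fintype_card, Fintype.card_subtype]

/-- The stabilizer of `κ` modulo the centralizer. -/
theorem card_conj_stab (hP : Nat.card P = p) (hp2 : ¬ p ^ 2 ∣ Nat.card G) {θ : Cn P → ℂ}
    (hθ : IsIrrCharacter (Cn P) θ) {a b : Cn P →* ℂˣ} (hb : IsD P p b) {y₀ : Nn P}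
    (hy₀ : y₀ ∈ stabN P θ) (h : a = cj P y₀ b) :
    Nat.card {y : Nn P // y ∈ stabN P θ ∧ a = cj P y b} = Nat.card (Cn P) := by
  subst h
  rw [← card_conj_eq hP hp2 hb y₀]
  apply Nat.card_congr
  apply Equiv.subtypeEquivRight
  intro y
  constructor
  · exact fun h => h.2
  · intro h
    refine ⟨?_, h⟩
    have h1 : ((y₀⁻¹ * y : Nn P) : G) ∈ Cn P := by
      apply mem_centralizer_of_cj_eq hP hp2 hb.1 hb.2
      rw [cj_mul, ← h, ← cj_mul, inv_mul_cancel, cj_one]
    have h2 : y₀⁻¹ * y ∈ stabN P θ :=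
      mem_stabN_of_mem (isClassFunction_of_isIrrCharacter hθ) h1
    have h3 := (stabN P θ).mul_mem hy₀ h2
    simpa using h3

theorem gram_same (hP : Nat.card P = p) (hp2 : ¬ p ^ 2 ∣ Nat.card G) {θ : Cn P → ℂ}
    (hθ : IsIrrCharacter (Cn P) θ) (hθP : ∀ x : Cn P, (x : G) ∈ P → θ x = θ 1) {e : ℕ}
    (hN : Nat.card (stabN P θ) = e * Nat.card (Cn P)) (a b : DD P p) (h : (rT P p θ) a b) :
    classInner (Ws P θ a.1) (Ws P θ b.1) = (e : ℂ) + 1 := by
  obtain ⟨y, hys, hy⟩ := h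
  rw [classInner_Ws_Ws_card hP hp2 hθ hθP a.2 b.2, hN, card_conj_stab hP hp2 hθ b.2 hys hy]
  have h1 : (Nat.card (Cn P) : ℂ) ≠ 0 := by
    exact_mod_cast Nat.card_pos.ne'
  push_cast
  field_simp

theorem gram_diff (hP : Nat.card P = p) (hp2 : ¬ p ^ 2 ∣ Nat.card G) {θ : Cn P → ℂ}
    (hθ : IsIrrCharacter (Cn P) θ) (hθP : ∀ x : Cn P, (x : G) ∈ P → θ x = θ 1) {e : ℕ}
    (hN : Nat.card (stabN P θ) = e * Nat.card (Cn P)) (a b : DD P p) (h : ¬ (rT P p θ) a b) :
    classInner (Ws P θ a.1) (Ws P θ b.1) = (e : ℂ) := by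
  rw [classInner_Ws_Ws_card hP hp2 hθ hθP a.2 b.2, hN]
  have h0 : Nat.card {y : Nn P // y ∈ stabN P θ ∧ a.1 = cj P y b.1} = 0 := by
    have : IsEmpty {y : Nn P // y ∈ stabN P θ ∧ a.1 = cj P y b.1} :=
      ⟨fun y => h ⟨y.1, y.2.1, y.2.2⟩⟩
    exact Nat.card_of_isEmpty
  have h1 : (Nat.card (Cn P) : ℂ) ≠ 0 := by
    exact_mod_cast Nat.card_pos.ne'
  rw [h0]
  push_cast
  field_simp
  simp

theorem card_class (hP : Nat.card P = p) (hp2 : ¬ p ^ 2 ∣ Nat.card G) {θ : Cn P → ℂ}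
    (hθ : IsIrrCharacter (Cn P) θ) {e : ℕ}
    (hN : Nat.card (stabN P θ) = e * Nat.card (Cn P)) (b : DD P p) :
    Nat.card {a : DD P p // (rT P p θ) a b} = e := by
  classical
  have := finite_DD hP hp2
  -- the orbit map
  let f : stabN P θ → {a : DD P p // (rT P p θ) a b} :=
    fun y => ⟨⟨cj P y b.1, cj_isD b.2 y⟩, ⟨y, y.2, rfl⟩⟩
  let _ : Fintype {a : DD P p // (rT P p θ) a b} := Fintype.ofFinite _
  have h1 : Nat.card (stabN P θ) = ∑ a : {a : DD P p // (rT P p θ) a b}, Nat.card {y // f y = a} := by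
    rw [← Nat.card_congr (Equiv.sigmaFiberEquiv f), Nat.card_sigma]
  have h2 : ∀ a : {a : DD P p // (rT P p θ) a b}, Nat.card {y // f y = a} = Nat.card (Cn P) := by
    rintro ⟨⟨κ, hκ⟩, ⟨y₀, hy₀s, hy₀⟩⟩
    have hy₀' : κ = cj P y₀ b.1 := hy₀
    rw [← card_conj_stab hP hp2 hθ b.2 hy₀s hy₀']
    apply Nat.card_congr
    refine
      { toFun := fun y => ⟨y.1.1, y.1.2, ?_⟩
        invFun := fun y => ⟨⟨y.1, y.2.1⟩, ?_⟩
        left_inv := fun y => rfl
        right_inv := fun y => rfl }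
    · have h3 := congrArg (fun a : {a : DD P p // (rT P p θ) a b} => a.1.1) y.2
      exact h3.symm
    · apply Subtype.ext
      apply Subtype.ext
      exact y.2.2.symm
  simp only [h2] at h1
  rw [Finset.sum_const, Finset.card_univ, smul_eq_mul, hN, ← Nat.card_eq_fintype_card] at h1
  exact (Nat.eq_of_mul_eq_mul_right Nat.card_pos h1).symm

/-- The inner product of `Ws` on the centralizer with `θ` itself. -/
theorem classInner_res_Ws_self (hP : Nat.card P = p) (hp2 : ¬ p ^ 2 ∣ Nat.card G) {θ : Cn P → ℂ}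
    (hθ : IsIrrCharacter (Cn P) θ) (hθP : ∀ x : Cn P, (x : G) ∈ P → θ x = θ 1) {e : ℕ}
    (hN : Nat.card (stabN P θ) = e * Nat.card (Cn P)) {κ : Cn P →* ℂˣ} (hκ : IsD P p κ) :
    classInner θ (fun c : Cn P => Ws P θ κ c) = -(e : ℂ) := by
  classical
  rw [classInner_res_Ws hP hp2 θ θ hκ.1]
  have h1 : ∀ y : Nn P, classInner θ (fun c => fl P (cj P y κ) c * cjt P y θ c) =
      - if y ∈ stabN P θ then 1 else 0 := by
    intro y
    have h2 : θ = (fun c => fl P (1 : Cn P →* ℂˣ) c * θ c + θ c) := by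
      funext c
      simp [fl]
    obtain ⟨K, -, hcard, hidx⟩ := exists_complement (P := P) hP hp2
    have h3 : θ = (fun c => (fun _ : Cn P => (1 : ℂ)) c * θ c) := by
      funext c
      simp
    have h4 := classInner_mul_mul (g₁ := θ) (g₂ := cjt P y θ) (f₁ := fun _ : Cn P => (1 : ℂ))
      (f₂ := fl P (cj P y κ)) hP hcard hidx (fun c v hv => rfl)
      (fun c v hv => fl_mul_of_mem (κ := cj P y κ) hcard (fun x => hκ.1 _) c hv)
      (fun c hc d => irr_mul_of_mem hθ hθP hc d)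
      (fun c hc d => irr_mul_of_mem (isIrr_cjt y hθ) (cjt_ker hθP y) hc d)
    simp only [one_mul] at h4
    have h5 : (fun c => θ c) = θ := rfl
    rw [h5] at h4
    rw [h4, classInner_irr hθ (isIrr_cjt y hθ)]
    have h6 : classInner (fun _ : Cn P => (1 : ℂ)) (fl P (cj P y κ)) = -1 := by
      have h7 : (fun _ : Cn P => (1 : ℂ)) = ch P 1 := by
        funext x
        simp [ch]
      rw [h7, fl_eq, classInner_sub_right, classInner_ch_ch, classInner_ch_ch,
        if_neg (cj_isD hκ y).2.symm, if_pos rfl]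
      ring
    rw [h6]
    have h8 : θ = cjt P y θ ↔ y ∈ stabN P θ := by
      rw [mem_stabN_iff, eq_comm]
    simp only [h8]
    ring
  simp only [h1]
  rw [Finset.sum_neg_distrib, Finset.sum_boole]
  have h9 : ((Finset.univ.filter (fun y : Nn P => y ∈ stabN P θ)).card : ℂ) = (Nat.card (stabN P θ) : ℂ) := by
    congr 1
    show _ = Nat.card {y : Nn P // y ∈ stabN P θ}
    rw [Nat.card_eq_fintype_card, Fintype.card_subtype]
  rw [h9, hN]
  have h10 : (Nat.card (Cn P) : ℂ) ≠ 0 := by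
    exact_mod_cast Nat.card_pos.ne'
  push_cast
  field_simp

end Gram

end Cfsg.Agent.Lib.ModRep.ThGram
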