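import Cfsg.Agent.Lib.ModRep.ThGram
import Cfsg.Agent.Lib.BlockT.NormalP
import Cfsg.Agent.Lib.BlockP.Defect

/-!
# The block idempotent of a block of `C_G(P)`, `P` of order `p`, `p ^ 2 ∤ |G|`

Every irreducible character of `C = P × K` has the form `κ θ`, with `θ` having `P` in the kernel.  The
block of `θ` is the set of `κ θ`, and its idempotent is that of `θ` in the group algebra of `K`.
Consequently `⟨Ind_C^G ((κ - 1) θ), χ⟩ = 0` for `χ` outside the induced block.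
-/

set_option autoImplicit false
set_option linter.style.haveILetI false
set_option linter.unusedSectionVars false

namespace Cfsg.Agent.Lib.ModRep.ThIdem

open Cfsg MonoidAlgebra
open Cfsg.Agent.Lib.Blocks.Local Cfsg.Agent.Lib.Blocks.Central Cfsg.Agent.Lib.Blocks.General
open Cfsg.Agent.Lib.Blocks.Induced
open Cfsg.Agent.Lib.Char.Induced Cfsg.Agent.Lib.Char.Ortho Cfsg.Agent.Lib.Char.Linear
open Cfsg.Agent.Lib.Char.Basic Cfsg.Agent.Lib.Char.GenLattice
open Cfsg.Agent.Lib.ExcP.Gram Cfsg.Agent.Lib.ExcP.Inst Cfsg.Agent.Lib.ExcP.Dual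
open Cfsg.Agent.Lib.ModRep.Prime Cfsg.Agent.Lib.ModRep.ThGram
open scoped ComplexConjugate

universe u

variable {G : Type u} [Group G] {p : ℕ} [hp : Fact p.Prime] {P : Subgroup G}

section Decomp

variable [Finite G] [Fintype (Cn P)]

/-- Every irreducible character of the centralizer is a linear twist of one having `P` in its
kernel. -/
theorem exists_decomp (hP : Nat.card P = p) (hp2 : ¬ p ^ 2 ∣ Nat.card G) (ξ : IrrCharacter (Cn P)) :
    ∃ (κ : Cn P →* ℂˣ) (θ' : IrrCharacter (Cn P)), (∀ x, κ x ^ p = 1) ∧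
      (∀ x : Cn P, (x : G) ∈ P → (θ' : Cn P → ℂ) x = (θ' : Cn P → ℂ) 1) ∧
      ∀ c, (ξ : Cn P → ℂ) c = ((κ c : ℂˣ) : ℂ) * (θ' : Cn P → ℂ) c := by
  have hξ1 : (ξ : Cn P → ℂ) 1 ≠ 0 := Cfsg.Agent.Lib.Char.Complete.irr_one_ne_zero ξ.2
  let f : P →* ℂ :=
    { toFun := fun u => (ξ : Cn P → ℂ) ⟨u, le_centralizer hP u.2⟩ / (ξ : Cn P → ℂ) 1
      map_one' := by
        have h0 : (⟨((1 : P) : G), le_centralizer hP (1 : P).2⟩ : Cn P) = 1 := rfl
        rw [h0, div_self hξ1]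
      map_mul' := by
        intro a b
        have h0 : (⟨((a * b : P) : G), le_centralizer hP (a * b : P).2⟩ : Cn P) =
            ⟨a, le_centralizer hP a.2⟩ * ⟨b, le_centralizer hP b.2⟩ := rfl
        rw [h0, irr_mul_of_central ξ.2 (central_of_mem (P := P) (u := ⟨(a : G), le_centralizer hP a.2⟩) a.2)]
        field_simp }
  obtain ⟨κ, hκ, hres⟩ := exists_extension hP hp2 f.toHomUnits
  have hκP : ∀ u : P, ((κ ⟨u, le_centralizer hP u.2⟩ : ℂˣ) : ℂ) =
      (ξ : Cn P → ℂ) ⟨u, le_centralizer hP u.2⟩ / (ξ : Cn P → ℂ) 1 := by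
    intro u
    have h1 := congrArg (fun Y : P →* ℂˣ => ((Y u : ℂˣ) : ℂ)) hres
    exact h1
  have hirr : IsIrrCharacter (Cn P) (fun c => ((κ⁻¹ c : ℂˣ) : ℂ) * (ξ : Cn P → ℂ) c) :=
    Cfsg.Agent.Lib.CharZeros.Gallagher.isIrrCharacter_mul_linear
      (isCharacter_of_isIrrCharacter (isIrrCharacter_of_hom κ⁻¹)) (by simp) ξ.2
  refine ⟨κ, ⟨_, hirr⟩, hκ, ?_, ?_⟩
  · intro x hx
    show ((κ⁻¹ x : ℂˣ) : ℂ) * (ξ : Cn P → ℂ) x = ((κ⁻¹ 1 : ℂˣ) : ℂ) * (ξ : Cn P → ℂ) 1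
    have h1 := hκP ⟨x, hx⟩
    have h2 : (⟨((⟨x, hx⟩ : P) : G), le_centralizer hP (⟨x, hx⟩ : P).2⟩ : Cn P) = x := rfl
    rw [h2] at h1
    rw [map_one, Units.val_one, one_mul, MonoidHom.inv_apply, Units.val_inv_eq_inv_val, h1]
    have hne : (ξ : Cn P → ℂ) x / (ξ : Cn P → ℂ) 1 ≠ 0 := by
      rw [← h1]
      exact Units.ne_zero _
    have hne2 : (ξ : Cn P → ℂ) x ≠ 0 := fun h => hne (by rw [h, zero_div])
    field_simp
  · intro c
    show _ = ((κ c : ℂˣ) : ℂ) * (((κ⁻¹ c : ℂˣ) : ℂ) * (ξ : Cn P → ℂ) c)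
    rw [← mul_assoc, ← Units.val_mul, ← MonoidHom.mul_apply, mul_inv_cancel, MonoidHom.one_apply,
      Units.val_one, one_mul]

/-- Sums over `C` of functions invariant under `P`. -/
theorem sum_complement (hP : Nat.card P = p) {K : Subgroup (Cn P)} (hcard : ¬ p ∣ Nat.card K)
    (hidx : K.index = p) [Fintype K] {F : Cn P → ℂ}
    (hF : ∀ c : Cn P, (c : G) ∈ P → ∀ d, F (c * d) = F d) :
    ∑ c, F c = (p : ℂ) * ∑ v : K, F v := by
  classical
  letI : Fintype P := Fintype.ofFinite _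
  have hbij := mul_bijective hP hcard hidx
  rw [← hbij.sum_comp, Fintype.sum_prod_type]
  have hF' : ∀ (u : P) (v : K), F (⟨u, le_centralizer hP u.2⟩ * (v : Cn P)) = F v :=
    fun u v => hF ⟨u, le_centralizer hP u.2⟩ u.2 _
  simp only [hF', Finset.sum_const, Finset.card_univ, ← Nat.card_eq_fintype_card, nsmul_eq_mul, hP]

open scoped Classical in
/-- Orthogonality on the complement. -/
theorem sum_K_eq (hP : Nat.card P = p) {K : Subgroup (Cn P)} (hcard : ¬ p ∣ Nat.card K)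
    (hidx : K.index = p) [Fintype K] (θ θ' : IrrCharacter (Cn P))
    (hθP : ∀ x : Cn P, (x : G) ∈ P → (θ : Cn P → ℂ) x = (θ : Cn P → ℂ) 1)
    (hθ'P : ∀ x : Cn P, (x : G) ∈ P → (θ' : Cn P → ℂ) x = (θ' : Cn P → ℂ) 1) :
    ∑ v : K, (θ' : Cn P → ℂ) v * conj ((θ : Cn P → ℂ) v) =
      (Nat.card K : ℂ) * if θ' = θ then 1 else 0 := by
  have h1 := classInner_irr θ'.2 θ.2
  rw [classInner_subgroup_eq, sum_complement hP hcard hidx (F := fun c => (θ' : Cn P → ℂ) c * conj ((θ : Cn P → ℂ) c))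
    (fun c hc d => by
      simp only [irr_mul_of_mem θ'.2 hθ'P hc d, irr_mul_of_mem θ.2 hθP hc d])] at h1
  have hCcard : (Nat.card (Cn P) : ℂ) = (Nat.card K : ℂ) * (p : ℂ) := by
    rw [← Nat.cast_mul, ← hidx, Subgroup.card_mul_index]
  have hK0 : (Nat.card K : ℂ) ≠ 0 := Nat.cast_ne_zero.mpr Nat.card_pos.ne'
  have hp0 : (p : ℂ) ≠ 0 := by
    exact_mod_cast hp.out.ne_zero
  rw [hCcard] at h1
  have h2 : ((θ' : Cn P → ℂ) = (θ : Cn P → ℂ)) ↔ θ' = θ := ⟨fun h => Subtype.ext h, fun h => by rw [h]⟩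
  simp only [h2] at h1
  rw [← h1]
  field_simp

end Decomp

section Block

variable [Fintype G] [Fintype (Cn P)] {M : Ideal AlgInt}

/-- A twist by a linear character of order dividing `p` stays in the block. -/
theorem mem_blockOf_of_twist (hM : IsPModular p M) {θ ξ : IrrCharacter (Cn P)} {κ : Cn P →* ℂˣ}
    (hκ : ∀ x, κ x ^ p = 1) (h : ∀ c, (ξ : Cn P → ℂ) c = ((κ c : ℂˣ) : ℂ) * (θ : Cn P → ℂ) c) :
    ξ ∈ blockOf M (θ : Cn P → ℂ) := by
  classical
  haveI := isPrime_of_pModular hM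
  intro g
  have h1 : (ξ : Cn P → ℂ) 1 = (θ : Cn P → ℂ) 1 := by
    rw [h 1]
    simp
  have h2 : centralChar (θ : Cn P → ℂ) g - centralChar (ξ : Cn P → ℂ) g =
      (1 - ((κ g : ℂˣ) : ℂ)) * centralChar (θ : Cn P → ℂ) g := by
    simp only [centralChar]
    rw [h1, h g]
    ring
  rw [h2]
  apply memLocalIdeal_mul_right _ (memLocalRing_of_isIntegral (isIntegral_centralChar θ g))
  have hκg : ((κ g : ℂˣ) : ℂ) ^ p = 1 := by
    rw [← Units.val_pow_eq_pow_val, hκ, Units.val_one]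
  have hint : IsIntegral ℤ ((κ g : ℂˣ) : ℂ) :=
    IsIntegral.of_pow hp.out.pos (by rw [hκg]; exact isIntegral_one)
  apply Cfsg.Agent.Lib.BlockT.NormalP.memLocalIdeal_sub_of_pow_sub hM isIntegral_one hint 1
  rw [pow_one, hκg, one_pow, sub_self]
  exact memLocalIdeal_zero

variable {K : Subgroup (Cn P)} [Fintype K] [Fintype (IrrCharacter (Cn P))]

open scoped Classical in
/-- The idempotent of `θ`. -/
noncomputable def Zel (hK : K.Normal) (θ : IrrCharacter (Cn P)) : Subalgebra.center ℂ (GA (Cn P)) :=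
  ⟨ofFun (fun k => if k ∈ K then (θ : Cn P → ℂ) 1 / (Nat.card K : ℂ) * conj ((θ : Cn P → ℂ) k) else 0), by
    rw [mem_center_iff]
    intro g h
    simp only [coeff_ofFun]
    have h1 : h * g * h⁻¹ ∈ K ↔ g ∈ K := by
      constructor
      · intro hg
        have := hK.conj_mem _ hg h⁻¹
        simpa [mul_assoc] using this
      · exact fun hg => hK.conj_mem _ hg h
    simp only [h1]
    have h2 := isClassFunction_of_isIrrCharacter θ.2 g h
    rw [h2]⟩

open scoped Classical in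
theorem coeff_Zel (hK : K.Normal) (θ : IrrCharacter (Cn P)) (k : Cn P) :
    ((Zel hK θ : Subalgebra.center ℂ (GA (Cn P))) : GA (Cn P)).coeff k =
      if k ∈ K then (θ : Cn P → ℂ) 1 / (Nat.card K : ℂ) * conj ((θ : Cn P → ℂ) k) else 0 := rfl

/-- The idempotent of `θ` is local. -/
theorem Zel_mem_local (hM : IsPModular p M) [M.IsPrime] (hK : K.Normal) (hcard : ¬ p ∣ Nat.card K)
    (θ : IrrCharacter (Cn P)) : Zel hK θ ∈ localCenter M (Cn P) := by
  classical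
  rw [mem_localCenter]
  intro k
  rw [coeff_Zel]
  split_ifs with hk
  · rw [div_eq_mul_inv]
    exact memLocalRing_mul (memLocalRing_mul
      (memLocalRing_of_isIntegral (Cfsg.Agent.Lib.BlockT.NormalP.isIntegral_irr θ 1))
      (memLocalRing_natCast_inv hM hcard))
      (memLocalRing_of_isIntegral (Cfsg.Agent.Lib.BlockP.Defect.isIntegral_conj
        (Cfsg.Agent.Lib.BlockT.NormalP.isIntegral_irr θ k)))
  · exact memLocalRing_zero

open scoped Classical in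
/-- The central characters of the idempotent of `θ`. -/
theorem omegaHom_Zel (hP : Nat.card P = p) (hcard : ¬ p ∣ Nat.card K) (hidx : K.index = p)
    (hK : K.Normal) (θ θ' ξ : IrrCharacter (Cn P))
    (hθP : ∀ x : Cn P, (x : G) ∈ P → (θ : Cn P → ℂ) x = (θ : Cn P → ℂ) 1)
    (hθ'P : ∀ x : Cn P, (x : G) ∈ P → (θ' : Cn P → ℂ) x = (θ' : Cn P → ℂ) 1) {κ : Cn P →* ℂˣ}
    (hκ : ∀ x, κ x ^ p = 1) (h : ∀ c, (ξ : Cn P → ℂ) c = ((κ c : ℂˣ) : ℂ) * (θ' : Cn P → ℂ) c) :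
    omegaHom ξ (Zel hK θ) = if θ' = θ then 1 else 0 := by
  have h1 : (ξ : Cn P → ℂ) 1 = (θ' : Cn P → ℂ) 1 := by
    rw [h 1]
    simp
  have hK0 : (Nat.card K : ℂ) ≠ 0 := Nat.cast_ne_zero.mpr Nat.card_pos.ne'
  have hne : (θ' : Cn P → ℂ) 1 ≠ 0 := Cfsg.Agent.Lib.Char.Complete.irr_one_ne_zero θ'.2
  rw [omegaHom_apply, lin_apply]
  simp only [coeff_Zel]
  rw [sum_eq_sum_subgroup K _ (fun g hg => by rw [if_neg hg, zero_mul])]
  have h2 : ∀ v : K, (if ((v : Cn P)) ∈ K then (θ : Cn P → ℂ) 1 / (Nat.card K : ℂ) *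
      conj ((θ : Cn P → ℂ) v) else 0) * (ξ : Cn P → ℂ) v =
      (θ : Cn P → ℂ) 1 / (Nat.card K : ℂ) * ((θ' : Cn P → ℂ) v * conj ((θ : Cn P → ℂ) v)) := by
    intro v
    rw [if_pos v.2, h v, hom_eq_one_of_mem hcard hκ v.2]
    simp only [Units.val_one, one_mul]
    ring
  rw [Finset.sum_congr rfl (fun v _ => h2 v), ← Finset.mul_sum, sum_K_eq hP hcard hidx θ θ' hθP hθ'P, h1]
  split_ifs with h3
  · subst h3
    field_simp
  · simp

/-- The block of `θ` consists of the twists of `θ`, and its idempotent is the idempotent of `θ`. -/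
theorem idem_blockOf (hM : IsPModular p M) (hP : Nat.card P = p) (hp2 : ¬ p ^ 2 ∣ Nat.card G)
    (hcard : ¬ p ∣ Nat.card K) (hidx : K.index = p) (hK : K.Normal) (θ : IrrCharacter (Cn P))
    (hθP : ∀ x : Cn P, (x : G) ∈ P → (θ : Cn P → ℂ) x = (θ : Cn P → ℂ) 1) :
    Zel hK θ = idem (blockOf M (θ : Cn P → ℂ)) := by
  classical
  haveI := isPrime_of_pModular hM
  apply eq_idem_of_omegaHom
  intro ψ
  obtain ⟨κ, θ', hκ, hθ'P, h⟩ := exists_decomp hP hp2 ψ
  rw [omegaHom_Zel hP hcard hidx hK θ θ' ψ hθP hθ'P hκ h]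
  by_cases h3 : θ' = θ
  · subst h3
    rw [if_pos rfl, if_pos (mem_blockOf_of_twist hM hκ h)]
  · rw [if_neg h3, if_neg]
    intro hψ
    have h4 := omegaHom_sub_mem_of_sameBlock hψ (Zel_mem_local hM hK hcard θ)
    rw [omegaHom_Zel hP hcard hidx hK θ θ' ψ hθP hθ'P hκ h, if_neg h3,
      omegaHom_Zel hP hcard hidx hK θ θ θ hθP hθP (κ := 1) (by simp) (by simp), if_pos rfl, sub_zero] at h4
    exact one_notMemLocalIdeal h4

end Block

section Van

variable [Fintype G] [Fintype (Cn P)] {M : Ideal AlgInt} [Fintype (IrrCharacter G)]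
  [Fintype (IrrCharacter (Cn P))] {K : Subgroup (Cn P)} [Fintype K]

/-- The elements of `P` have order a power of `p`. -/
theorem exists_orderOf_eq (hP : Nat.card P = p) {u : G} (hu : u ∈ P) : ∃ k : ℕ, orderOf u = p ^ k := by
  have h1 : orderOf (⟨u, hu⟩ : P) ∣ Nat.card P := orderOf_dvd_natCard _
  rw [hP, Subgroup.orderOf_mk] at h1
  rcases (Nat.dvd_prime hp.out).mp h1 with h2 | h2
  · exact ⟨0, by rw [h2, pow_zero]⟩
  · exact ⟨1, by rw [h2, pow_one]⟩

/-- The averages for a character outside the induced block vanish. -/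
theorem sum_eq_zero_of_notMem_block (hM : IsPModular p M) (hP : Nat.card P = p)
    (hp2 : ¬ p ^ 2 ∣ Nat.card G) (hcard : ¬ p ∣ Nat.card K) (hidx : K.index = p) (hK : K.Normal)
    (θ : IrrCharacter (Cn P)) (hθP : ∀ x : Cn P, (x : G) ∈ P → (θ : Cn P → ℂ) x = (θ : Cn P → ℂ) 1)
    {B : Set (IrrCharacter G)} (hind : IsInducedBlock M (Cn P) (blockOf M (θ : Cn P → ℂ)) B)
    {χ : IrrCharacter G} (hχ : χ ∉ B) {u : G} (hu : u ∈ P) (hu1 : u ≠ 1) :
    ∑ v : K, conj ((θ : Cn P → ℂ) v) * (χ : G → ℂ) (((v : Cn P) : G) * u) = 0 := by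
  classical
  haveI := isPrime_of_pModular hM
  haveI : Fact p.Prime := hp
  set A := blockOf M (θ : Cn P → ℂ) with hA
  set F : Set (IrrCharacter G) := Bᶜ with hF
  have hAl : idem A ∈ localCenter M (Cn P) := idem_mem_localCenter ⟨θ, rfl⟩
  have hFl : idem F ∈ localCenter M G := idem_compl_mem_localCenter (idem_mem_localCenter hind.2.1)
  have hAF : ∀ ξ ∈ A, MemLocalIdeal M (indHom (Cn P) ξ (idem F)) := by
    intro ξ hξ
    obtain ⟨j₀, hj₀⟩ := isPBlock_nonempty hind.2.1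
    have h2 := IsInducedBlock.sub_mem (Cn P) hind hξ hj₀ hFl
    rwa [omegaHom_idem, if_neg (fun h => h hj₀), sub_zero] at h2
  have huC : u ∈ Cn P := le_centralizer hP hu
  have hpart : IsPPart p (((⟨u, huC⟩ : Cn P) : Cn P) : G) u := by
    refine ⟨1, by simp, by simp, exists_orderOf_eq hP hu, ?_⟩
    rw [orderOf_one]
    intro h
    exact hp.out.one_lt.ne' (Nat.dvd_one.mp h)
  have hC : Subgroup.centralizer ({u} : Set G) ≤ Cn P := (centralizer_eq hP hu hu1).symm.le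
  have key := sum_idem_mul_eq_zero_general (Cn P) hM hAl hFl hAF ⟨u, huC⟩ hpart hC χ hχ
  have hcoef : ∀ k : Cn P, blockCoeff A k =
      if k ∈ K then (θ : Cn P → ℂ) 1 / (Nat.card K : ℂ) * conj ((θ : Cn P → ℂ) k) else 0 := by
    intro k
    rw [← coeff_idem, hA, ← idem_blockOf hM hP hp2 hcard hidx hK θ hθP, coeff_Zel]
  simp only [hcoef] at key
  rw [sum_eq_sum_subgroup K _ (fun g hg => by rw [if_neg hg, zero_mul])] at key
  have h2 : ∀ v : K, (if ((v : Cn P)) ∈ K then (θ : Cn P → ℂ) 1 / (Nat.card K : ℂ) *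
      conj ((θ : Cn P → ℂ) v) else 0) * (χ : G → ℂ) (((v : Cn P) : G) * u) =
      (θ : Cn P → ℂ) 1 / (Nat.card K : ℂ) * (conj ((θ : Cn P → ℂ) v) * (χ : G → ℂ) (((v : Cn P) : G) * u)) := by
    intro v
    rw [if_pos v.2]
    ring
  rw [Finset.sum_congr rfl (fun v _ => h2 v), ← Finset.mul_sum] at key
  have hK0 : (Nat.card K : ℂ) ≠ 0 := Nat.cast_ne_zero.mpr Nat.card_pos.ne'
  have hne : (θ : Cn P → ℂ) 1 ≠ 0 := Cfsg.Agent.Lib.Char.Complete.irr_one_ne_zero θ.2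
  exact (mul_eq_zero.mp key).resolve_left (div_ne_zero hne hK0)

/-- The inner product with an irreducible character, in terms of the decomposition. -/
theorem classInner_Ws_eq (hP : Nat.card P = p) (hcard : ¬ p ∣ Nat.card K) (hidx : K.index = p)
    (θ : IrrCharacter (Cn P)) (hθP : ∀ x : Cn P, (x : G) ∈ P → (θ : Cn P → ℂ) x = (θ : Cn P → ℂ) 1)
    {κ : Cn P →* ℂˣ} (hκ : ∀ x, κ x ^ p = 1) (j : IrrCharacter G) [Fintype P] :
    classInner (Ws P (θ : Cn P → ℂ) κ) (j : G → ℂ) = (Nat.card (Cn P) : ℂ)⁻¹ *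
      ∑ u : P, (((κ ⟨u, le_centralizer hP u.2⟩ : ℂˣ) : ℂ) - 1) *
        ∑ v : K, ((θ : Cn P → ℂ) v * conj ((j : G → ℂ) ((u : G) * ((v : Cn P) : G)))) := by
  classical
  rw [Ws, classInner_indFun_left _ _ _ (isClassFunction_of_isIrrCharacter j.2),
    classInner_subgroup_eq]
  congr 1
  rw [← (mul_bijective hP hcard hidx).sum_comp, Fintype.sum_prod_type]
  refine Finset.sum_congr rfl fun u _ => ?_
  rw [Finset.mul_sum]
  refine Finset.sum_congr rfl fun v _ => ?_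
  show (fl P κ ((⟨u, le_centralizer hP u.2⟩ : Cn P) * (v : Cn P)) *
    (θ : Cn P → ℂ) ((⟨u, le_centralizer hP u.2⟩ : Cn P) * (v : Cn P))) * _ = _
  rw [fl_mul_of_mem hcard hκ _ v.2, irr_mul_of_mem θ.2 hθP (u := ⟨u, le_centralizer hP u.2⟩) u.2]
  rw [mul_assoc]
  rfl

/-- **Vanishing outside the induced block.** -/
theorem classInner_Ws_eq_zero (hM : IsPModular p M) (hP : Nat.card P = p)
    (hp2 : ¬ p ^ 2 ∣ Nat.card G) (θ : IrrCharacter (Cn P))
    (hθP : ∀ x : Cn P, (x : G) ∈ P → (θ : Cn P → ℂ) x = (θ : Cn P → ℂ) 1)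
    {B : Set (IrrCharacter G)} (hind : IsInducedBlock M (Cn P) (blockOf M (θ : Cn P → ℂ)) B)
    {κ : Cn P →* ℂˣ} (hκ : ∀ x, κ x ^ p = 1) {j : IrrCharacter G} (hj : j ∉ B) :
    classInner (Ws P (θ : Cn P → ℂ) κ) (j : G → ℂ) = 0 := by
  classical
  obtain ⟨K, hK, hcard, hidx⟩ := exists_complement (P := P) hP hp2
  letI : Fintype K := Fintype.ofFinite _
  letI : Fintype P := Fintype.ofFinite _
  rw [classInner_Ws_eq hP hcard hidx θ hθP hκ j]
  apply mul_eq_zero_of_right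
  refine Finset.sum_eq_zero fun u _ => ?_
  by_cases hu1 : u = 1
  · subst hu1
    have : (κ ⟨((1 : P) : G), le_centralizer hP (1 : P).2⟩ : ℂˣ) = 1 := by
      have h0 : (⟨((1 : P) : G), le_centralizer hP (1 : P).2⟩ : Cn P) = 1 := rfl
      rw [h0, map_one]
    rw [this]
    simp
  · have hu1' : (u : G) ≠ 1 := fun h => hu1 (Subtype.ext h)
    have h2 := sum_eq_zero_of_notMem_block hM hP hp2 hcard hidx hK θ hθP hind hj u.2 hu1'
    have h3 : ∑ v : K, ((θ : Cn P → ℂ) v * conj ((j : G → ℂ) ((u : G) * ((v : Cn P) : G)))) = 0 := by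
      have h4 : ∀ v : K, (u : G) * ((v : Cn P) : G) = ((v : Cn P) : G) * (u : G) := by
        intro v
        exact ((Subgroup.mem_centralizer_iff.mp (v : Cn P).2) _ u.2)
      simp_rw [h4]
      have h5 := congrArg conj h2
      rw [map_sum, map_zero] at h5
      rw [← h5]
      refine Finset.sum_congr rfl fun v _ => ?_
      rw [map_mul, Complex.conj_conj]
    rw [h3, mul_zero]

end Van

end Cfsg.Agent.Lib.ModRep.ThIdem

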